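import Cfsg.Agent.Lib.Classes.OmegaEightThree.Basic

/-!
Orthogonal blocks of an element of order three of `O⁺₈(3)`: a three dimensional block carrying one Jordan block of
size three, and a four dimensional block carrying two Jordan blocks of size two.
-/

set_option autoImplicit false
set_option linter.unusedSimpArgs false
set_option linter.unusedVariables false

namespace CfsgLib.O83

/-- Gram relations of a block of size three. -/
structure B3 (a : F3) (v w z : V8) : Prop where
  sq : a * a = 1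
  vv : Bf v v = 0
  vw : Bf v w = -a
  ww : Bf w w = -a
  vz : Bf v z = a
  wz : Bf w z = 0
  zz : Bf z z = 0

/-- Gram relations of a pair of blocks of size two. -/
structure B4 (f h g k : V8) : Prop where
  ff : Bf f f = 0
  fh : Bf f h = 0
  fg : Bf f g = 0
  fk : Bf f k = -1
  hh : Bf h h = 0
  hg : Bf h g = 1
  hk : Bf h k = 0
  gg : Bf g g = 0
  gk : Bf g k = 0
  kk : Bf k k = 0

/-- A family of vectors has non-degenerate Gram matrix. -/
def GramNd {κ : Type*} [Fintype κ] (p : κ → V8) : Prop :=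
  ∀ c : κ → F3, (∀ k, ∑ i, c i * Bf (p i) (p k) = 0) → c = 0

/-- The orthogonal complement of a family of vectors. -/
noncomputable def perp {κ : Type*} (p : κ → V8) : Submodule F3 V8 :=
  ⨅ i, LinearMap.ker (Bf.flip (p i))

lemma mem_perp {κ : Type*} {p : κ → V8} {u : V8} : u ∈ perp p ↔ ∀ i, Bf u (p i) = 0 := by
  simp only [perp, Submodule.mem_iInf, LinearMap.mem_ker, LinearMap.BilinForm.flip_apply]

/-- The nilpotent operator of a block of size three. -/
noncomputable def n3 (a : F3) (v w z : V8) : V8 →ₗ[F3] V8 :=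
  (a • Bf.flip z).smulRight w + ((-a) • (Bf.flip w + Bf.flip z)).smulRight z

lemma n3_apply (a : F3) (v w z u : V8) :
    n3 a v w z u = (a * Bf u z) • w + (-a * (Bf u w + Bf u z)) • z := by
  simp only [n3, LinearMap.add_apply, LinearMap.smulRight_apply, LinearMap.smul_apply,
    LinearMap.BilinForm.flip_apply, smul_eq_mul]

/-- The nilpotent operator of a pair of blocks of size two. -/
noncomputable def n4 (f h g k : V8) : V8 →ₗ[F3] V8 :=
  (-(Bf.flip k)).smulRight h + (Bf.flip h).smulRight k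

lemma n4_apply (f h g k u : V8) : n4 f h g k u = (-Bf u k) • h + (Bf u h) • k := by
  simp only [n4, LinearMap.add_apply, LinearMap.smulRight_apply, LinearMap.neg_apply,
    LinearMap.BilinForm.flip_apply]

section Block3

variable {a : F3} {v w z : V8}

lemma n3_v (b : B3 a v w z) : n3 a v w z v = w := by
  rw [n3_apply, b.vz, b.vw, b.sq]; simp

lemma n3_w (b : B3 a v w z) : n3 a v w z w = z := by
  rw [n3_apply, b.wz, b.ww]; simp [b.sq]

lemma n3_z (b : B3 a v w z) : n3 a v w z z = 0 := by
  rw [n3_apply, b.zz, Bf_comm z w, b.wz]; simp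

lemma n3_perp {u : V8} (hw : Bf u w = 0) (hz : Bf u z = 0) : n3 a v w z u = 0 := by
  rw [n3_apply, hw, hz]; simp

lemma n3_cube (b : B3 a v w z) (u : V8) : n3 a v w z (n3 a v w z (n3 a v w z u)) = 0 := by
  conv_lhs => rw [n3_apply (u := u)]
  simp only [map_add, map_smul, n3_w b, n3_z b, smul_zero, add_zero]

lemma n3_rel (b : B3 a v w z) (u u' : V8) :
    Bf (n3 a v w z u) u' + Bf u (n3 a v w z u') + Bf (n3 a v w z u) (n3 a v w z u') = 0 := by
  simp only [n3_apply, map_add, map_smul, LinearMap.add_apply, LinearMap.smul_apply, smul_eq_mul,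
    b.ww, b.wz, b.zz, Bf_comm z w]
  rw [Bf_comm w u', Bf_comm z u']
  linear_combination (-a * Bf u z * Bf u' z) * b.sq +
    (-a * Bf u z * Bf u' z) * three_eq_zero

lemma decomp3 (b : B3 a v w z) (u : V8) :
    ∃ (α β γ : F3) (r : V8), u = α • v + β • w + γ • z + r ∧
      Bf r v = 0 ∧ Bf r w = 0 ∧ Bf r z = 0 := by
  refine ⟨a * Bf u z, -a * (Bf u w + Bf u z), a * Bf u v - a * (Bf u w + Bf u z),
    u - ((a * Bf u z) • v + (-a * (Bf u w + Bf u z)) • w +
      (a * Bf u v - a * (Bf u w + Bf u z)) • z), by abel, ?_, ?_, ?_⟩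
  all_goals simp only [map_sub, map_add, map_smul, LinearMap.sub_apply, LinearMap.add_apply,
    LinearMap.smul_apply, smul_eq_mul, b.vv, b.vw, b.ww, b.vz, b.wz, b.zz, Bf_comm w v,
    Bf_comm z v, Bf_comm z w]
  · linear_combination (-Bf u v) * b.sq
  · linear_combination (-Bf u w) * b.sq
  · linear_combination (-Bf u z) * b.sq

lemma gram3 (b : B3 a v w z) : GramNd ![v, w, z] := by
  intro c hc
  have h0 := hc 0
  have h1 := hc 1
  have h2 := hc 2
  simp [Fin.sum_univ_three, b.vv, b.vw, b.ww, b.vz, b.wz, b.zz, Bf_comm w v, Bf_comm z v,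
    Bf_comm z w] at h0 h1 h2
  have ha : a ≠ 0 := fun h => by simpa [h] using b.sq
  have e0 : c 0 = 0 := by
    rcases h2 with h | h
    · exact h
    · exact absurd h ha
  have e1 : c 1 = 0 := by
    have : c 1 * a = 0 := by linear_combination -h1 - a * e0
    exact (mul_eq_zero.mp this).resolve_right ha
  have e2 : c 2 = 0 := by
    have : c 2 * a = 0 := by linear_combination h0 + a * e1
    exact (mul_eq_zero.mp this).resolve_right ha
  ext i; fin_cases i <;> assumption

end Block3

section Block4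

variable {f h g k : V8}

lemma n4_f (b : B4 f h g k) : n4 f h g k f = h := by rw [n4_apply, b.fk, b.fh]; simp

lemma n4_g (b : B4 f h g k) : n4 f h g k g = k := by
  rw [n4_apply, b.gk, Bf_comm g h, b.hg]; simp

lemma n4_h (b : B4 f h g k) : n4 f h g k h = 0 := by rw [n4_apply, b.hk, b.hh]; simp

lemma n4_k (b : B4 f h g k) : n4 f h g k k = 0 := by
  rw [n4_apply, b.kk, Bf_comm k h, b.hk]; simp

lemma n4_perp {u : V8} (hk : Bf u k = 0) (hh : Bf u h = 0) : n4 f h g k u = 0 := by
  rw [n4_apply, hk, hh]; simp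

lemma n4_cube (b : B4 f h g k) (u : V8) : n4 f h g k (n4 f h g k u) = 0 := by
  conv_lhs => rw [n4_apply (u := u)]
  simp only [map_add, map_smul, n4_h b, n4_k b, smul_zero, add_zero]

lemma n4_rel (b : B4 f h g k) (u u' : V8) :
    Bf (n4 f h g k u) u' + Bf u (n4 f h g k u') + Bf (n4 f h g k u) (n4 f h g k u') = 0 := by
  simp only [n4_apply, map_add, map_smul, LinearMap.add_apply, LinearMap.smul_apply, smul_eq_mul,
    b.hh, b.hk, b.kk, Bf_comm k h]
  rw [Bf_comm h u', Bf_comm k u']
  ring

lemma decomp4 (b : B4 f h g k) (u : V8) :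
    ∃ (α β γ δ : F3) (r : V8), u = α • f + β • h + γ • g + δ • k + r ∧
      Bf r f = 0 ∧ Bf r h = 0 ∧ Bf r g = 0 ∧ Bf r k = 0 := by
  refine ⟨-Bf u k, Bf u g, Bf u h, -Bf u f,
    u - ((-Bf u k) • f + (Bf u g) • h + (Bf u h) • g + (-Bf u f) • k), by abel, ?_, ?_, ?_, ?_⟩
  all_goals simp only [map_sub, map_add, map_smul, LinearMap.sub_apply, LinearMap.add_apply,
    LinearMap.smul_apply, smul_eq_mul, b.ff, b.fh, b.fg, b.fk, b.hh, b.hg, b.hk, b.gg, b.gk, b.kk,
    Bf_comm h f, Bf_comm g f, Bf_comm k f, Bf_comm g h, Bf_comm k h, Bf_comm k g]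
  all_goals ring

lemma gram4 (b : B4 f h g k) : GramNd ![f, h, g, k] := by
  intro c hc
  have h0 := hc 0
  have h1 := hc 1
  have h2 := hc 2
  have h3 := hc 3
  simp [Fin.sum_univ_four, b.ff, b.fh, b.fg, b.fk, b.hh, b.hg, b.hk, b.gg, b.gk, b.kk,
    Bf_comm h f, Bf_comm g f, Bf_comm k f, Bf_comm g h, Bf_comm k h, Bf_comm k g] at h0 h1 h2 h3
  ext i; fin_cases i <;> assumption

end Block4

/-- The union of two orthogonal families with invertible Gram matrices has one. -/
lemma gram_orth {κ κ' : Type*} [Fintype κ] [Fintype κ'] {p : κ → V8} {p' : κ' → V8}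
    (hp : GramNd p) (hp' : GramNd p') (ho : ∀ i j, Bf (p i) (p' j) = 0) :
    GramNd (Sum.elim p p') := by
  intro c hc
  have e1 := hp (fun i => c (.inl i)) fun k => by
    have := hc (.inl k)
    simp only [Fintype.sum_sum_type, Sum.elim_inl, Sum.elim_inr, Bf_comm (p' _) (p k), ho,
      mul_zero, Finset.sum_const_zero, add_zero] at this
    exact this
  have e2 := hp' (fun i => c (.inr i)) fun k => by
    have := hc (.inr k)
    simp only [Fintype.sum_sum_type, Sum.elim_inl, Sum.elim_inr, ho,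
      mul_zero, Finset.sum_const_zero, zero_add] at this
    exact this
  ext (i | i)
  · exact congrFun e1 i
  · exact congrFun e2 i

end CfsgLib.O83
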