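import Cfsg.Agent.Lib.Classes.OmegaEightThree.Decompose

/-!
Every element of order three of `O⁺₈(3)` is given by one of five block shapes.
-/

set_option autoImplicit false
set_option linter.unusedSimpArgs false
set_option linter.unusedVariables false

namespace CfsgLib.O83

/-- Shape `2² 1⁴`. -/
def ShapeA (x : G8) : Prop := ∃ f h g k, B4 f h g k ∧ nop x = n4 f h g k

/-- Shape `3 1⁵`. -/
def ShapeB (a : F3) (x : G8) : Prop := ∃ v w z, B3 a v w z ∧ nop x = n3 a v w z

/-- Shape `3 2² 1`. -/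
def ShapeC (a : F3) (x : G8) : Prop :=
  ∃ v w z f h g k, B3 a v w z ∧ B4 f h g k ∧
    (∀ i j, Bf (![v, w, z] i) (![f, h, g, k] j) = 0) ∧ nop x = n3 a v w z + n4 f h g k

/-- Shape `3² 1²`. -/
def ShapeD (a b : F3) (x : G8) : Prop :=
  ∃ v w z v' w' z', B3 a v w z ∧ B3 b v' w' z' ∧
    (∀ i j, Bf (![v, w, z] i) (![v', w', z'] j) = 0) ∧ nop x = n3 a v w z + n3 b v' w' z'

/-- Shape `2⁴`. -/
def ShapeE (x : G8) : Prop :=
  ∃ f h g k f' h' g' k', B4 f h g k ∧ B4 f' h' g' k' ∧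
    (∀ i j, Bf (![f, h, g, k] i) (![f', h', g', k'] j) = 0) ∧ nop x = n4 f h g k + n4 f' h' g' k'

variable {x : G8}

/-- A vector on which `B((x-1)²u,u)` does not vanish, inside a subspace. -/
lemma exists_qN_mem (hx : x ^ 3 = 1) {W : Submodule F3 V8} (hW : Inv x W) (hnd : Nd W) {u : V8}
    (hu : u ∈ W) (hne : nop x (nop x u) ≠ 0) : ∃ v ∈ W, qN x v ≠ 0 := by
  by_contra hc
  simp only [not_exists, not_and, not_not] at hc
  refine hne (hnd _ (hW _ (hW _ hu)) fun w hw => ?_)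
  have h := qN_add hx u w
  rw [hc _ (W.add_mem hu hw), hc _ hu, hc _ hw] at h
  linear_combination h + Bf (nop x (nop x u)) w * three_eq_zero

lemma nop_eq_n3 (hx : x ^ 3 = 1) {a : F3} {v : V8}
    (b : B3 a v (nop x v) (nop x (nop x v))) {u r : V8} {α β γ : F3}
    (hu : u = α • v + β • nop x v + γ • nop x (nop x v) + r)
    (h1 : Bf r (nop x v) = 0) (h2 : Bf r (nop x (nop x v)) = 0) :
    nop x u = n3 a v (nop x v) (nop x (nop x v)) u + nop x r := by
  rw [hu]
  simp only [map_add, map_smul, n3_v b, n3_w b, n3_z b, n3_perp h1 h2, nop_cube hx]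
  abel

lemma nop_eq_n4 {f g : V8} (b : B4 f (nop x f) g (nop x g)) (hf : nop x (nop x f) = 0)
    (hg : nop x (nop x g) = 0) {u r : V8} {α β γ δ : F3}
    (hu : u = α • f + β • nop x f + γ • g + δ • nop x g + r)
    (h1 : Bf r (nop x f) = 0) (h2 : Bf r (nop x g) = 0) :
    nop x u = n4 f (nop x f) g (nop x g) u + nop x r := by
  rw [hu]
  simp only [map_add, map_smul, n4_f b, n4_g b, n4_h b, n4_k b, n4_perp h2 h1, hf, hg]
  abel

lemma not_gram_lt {κ : Type*} [Fintype κ] {p : κ → V8} (h : GramNd p)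
    (hc : 8 < Fintype.card κ) : False :=
  absurd (card_le_eight (linearIndependent_of_gram p h)) (by omega)

theorem classify (hx : x ^ 3 = 1) (hne : x ≠ 1) :
    ShapeA x ∨ ShapeE x ∨ (∃ a : F3, a ≠ 0 ∧ ShapeB a x) ∨ (∃ a : F3, a ≠ 0 ∧ ShapeC a x) ∨
      ShapeD 1 1 x ∨ ShapeD 1 (-1) x := by
  classical
  obtain ⟨u₀, hu₀⟩ : ∃ u, nop x u ≠ 0 := by
    by_contra hc
    simp only [not_exists, not_not] at hc
    exact hne ((nop_eq_zero_iff x).mp hc)
  by_cases hN2 : ∀ u, nop x (nop x u) = 0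
  · obtain ⟨f, -, g, -, b⟩ := exists_b4 hx inv_top nd_top (fun u _ => hN2 u)
      (u := u₀) trivial hu₀
    set W := perp ![f, nop x f, g, nop x g] with hWdef
    have hi : Inv x W := perp4_inv hx (hN2 f) (hN2 g)
    have hnd : Nd W := nd4 b
    by_cases hW1 : ∀ u ∈ W, nop x u = 0
    · left
      refine ⟨f, _, g, _, b, LinearMap.ext fun u => ?_⟩
      obtain ⟨α, β, γ, δ, r, hu, h1, h2, h3, h4⟩ := decomp4 b u
      rw [nop_eq_n4 b (hN2 f) (hN2 g) hu h2 h4, hW1 r (mem_perp4 h1 h2 h3 h4), add_zero]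
    right; left
    simp only [not_forall] at hW1
    obtain ⟨u₁, hu₁W, hu₁⟩ := hW1
    obtain ⟨f', hf', g', hg', b'⟩ := exists_b4 hx hi hnd (fun u _ => hN2 u) hu₁W hu₁
    have hm : ∀ j, ![f', nop x f', g', nop x g'] j ∈ W := by
      intro j; fin_cases j
      exacts [hf', hi _ hf', hg', hi _ hg']
    have ho : ∀ i j, Bf (![f, nop x f, g, nop x g] i) (![f', nop x f', g', nop x g'] j) = 0 :=
      fun i j => by rw [Bf_comm]; exact mem_perp.mp (hm j) i
    refine ⟨f, _, g, _, f', _, g', _, b, b', ho, LinearMap.ext fun u => ?_⟩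
    obtain ⟨α, β, γ, δ, r, hu, h1, h2, h3, h4⟩ := decomp4 b u
    obtain ⟨α', β', γ', δ', r', hr, k1, k2, k3, k4⟩ := decomp4 b' r
    have hrW : r' ∈ W := by
      have e : r' = r - (α' • f' + β' • nop x f' + γ' • g' + δ' • nop x g') := by rw [hr]; abel
      rw [e]
      exact W.sub_mem (mem_perp4 h1 h2 h3 h4) (add_mem (add_mem (add_mem (W.smul_mem _ hf')
        (W.smul_mem _ (hi _ hf'))) (W.smul_mem _ hg')) (W.smul_mem _ (hi _ hg')))
    have hr0 : nop x r' = 0 := by
      by_contra hne'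
      have hi' : Inv x (W ⊓ perp ![f', nop x f', g', nop x g']) := fun w hw =>
        ⟨hi w hw.1, perp4_inv hx (hN2 f') (hN2 g') w hw.2⟩
      obtain ⟨p, hp, q, hq, b''⟩ := exists_b4 hx hi' (nd_inter hnd hm (hdec4 b'))
        (fun w _ => hN2 w) (u := r') ⟨hrW, mem_perp4 k1 k2 k3 k4⟩ hne'
      have hm' : ∀ j, ![p, nop x p, q, nop x q] j ∈ W ⊓ perp ![f', nop x f', g', nop x g'] := by
        intro j; fin_cases j
        exacts [hp, hi' _ hp, hq, hi' _ hq]
      exact not_gram_lt (gram_orth (gram_orth (gram4 b) (gram4 b') ho) (gram4 b'') fun i j => by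
        rw [Bf_comm]
        rcases i with i | i
        exacts [mem_perp.mp (hm' j).1 i, mem_perp.mp (hm' j).2 i]) (by simp)
    have e4 : n4 f' (nop x f') g' (nop x g') u = n4 f' (nop x f') g' (nop x g') r := by
      have z0 : ∀ i, n4 f' (nop x f') g' (nop x g') (![f, nop x f, g, nop x g] i) = 0 :=
        fun i => n4_perp (ho i 3) (ho i 1)
      have a0 : n4 f' (nop x f') g' (nop x g') f = 0 := z0 0
      have a1 : n4 f' (nop x f') g' (nop x g') (nop x f) = 0 := z0 1
      have a2 : n4 f' (nop x f') g' (nop x g') g = 0 := z0 2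
      have a3 : n4 f' (nop x f') g' (nop x g') (nop x g) = 0 := z0 3
      rw [hu]
      simp only [map_add, map_smul, a0, a1, a2, a3, smul_zero, zero_add]
    rw [LinearMap.add_apply, nop_eq_n4 b (hN2 f) (hN2 g) hu h2 h4, e4,
      nop_eq_n4 b' (hN2 f') (hN2 g') hr k2 k4, hr0, add_zero]
  right
  right
  simp only [not_forall] at hN2
  obtain ⟨u₁, hu₁⟩ := hN2
  -- prefer a vector of value one
  obtain ⟨v₀, a, ha, hq, hpri⟩ : ∃ v₀ a, a ≠ 0 ∧ qN x v₀ = a ∧
      (a = 1 ∨ ∀ v, qN x v ≠ 1) := by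
    by_cases h1 : ∃ v, qN x v = 1
    · obtain ⟨v, hv⟩ := h1; exact ⟨v, 1, one_ne_zero, hv, Or.inl rfl⟩
    · obtain ⟨v, hv⟩ := exists_qN_ne_zero hx hu₁
      exact ⟨v, qN x v, hv, rfl, Or.inr fun w hw => h1 ⟨w, hw⟩⟩
  obtain ⟨t, b⟩ := exists_b3 hx hq ha
  generalize v₀ + t • nop x (nop x v₀) = v at b
  set W := perp ![v, nop x v, nop x (nop x v)] with hWdef
  have hi : Inv x W := perp3_inv hx v
  have hnd : Nd W := nd3 b
  have hrmem : ∀ {r}, Bf r v = 0 → Bf r (nop x v) = 0 → Bf r (nop x (nop x v)) = 0 → r ∈ W :=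
    fun h1 h2 h3 => mem_perp3 h1 h2 h3
  by_cases hW1 : ∀ u ∈ W, nop x u = 0
  · left
    refine ⟨a, ha, v, _, _, b, LinearMap.ext fun u => ?_⟩
    obtain ⟨α, β, γ, r, hu, h1, h2, h3⟩ := decomp3 b u
    rw [nop_eq_n3 hx b hu h2 h3, hW1 r (hrmem h1 h2 h3), add_zero]
  simp only [not_forall] at hW1
  obtain ⟨u₂, hu₂W, hu₂⟩ := hW1
  by_cases hW2 : ∀ u ∈ W, nop x (nop x u) = 0
  · right; left
    obtain ⟨f, hf, g, hg, b'⟩ := exists_b4 hx hi hnd hW2 hu₂W hu₂
    have hm : ∀ j, ![f, nop x f, g, nop x g] j ∈ W := by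
      intro j; fin_cases j
      exacts [hf, hi _ hf, hg, hi _ hg]
    have ho : ∀ i j, Bf (![v, nop x v, nop x (nop x v)] i) (![f, nop x f, g, nop x g] j) = 0 :=
      fun i j => by rw [Bf_comm]; exact mem_perp.mp (hm j) i
    refine ⟨a, ha, v, _, _, f, _, g, _, b, b', ho, LinearMap.ext fun u => ?_⟩
    obtain ⟨α, β, γ, r, hu, h1, h2, h3⟩ := decomp3 b u
    obtain ⟨α', β', γ', δ', r', hr, k1, k2, k3, k4⟩ := decomp4 b' r
    have hrW : r' ∈ W := by
      have e : r' = r - (α' • f + β' • nop x f + γ' • g + δ' • nop x g) := by rw [hr]; abel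
      rw [e]
      exact W.sub_mem (hrmem h1 h2 h3) (add_mem (add_mem (add_mem (W.smul_mem _ hf)
        (W.smul_mem _ (hi _ hf))) (W.smul_mem _ hg)) (W.smul_mem _ (hi _ hg)))
    have hr0 : nop x r' = 0 := by
      by_contra hne'
      have hi' : Inv x (W ⊓ perp ![f, nop x f, g, nop x g]) := fun w hw =>
        ⟨hi w hw.1, perp4_inv hx (hW2 f hf) (hW2 g hg) w hw.2⟩
      obtain ⟨f', hf', g', hg', b''⟩ := exists_b4 hx hi'
        (nd_inter hnd hm (hdec4 b')) (fun w hw => hW2 w hw.1)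
        (u := r') ⟨hrW, mem_perp4 k1 k2 k3 k4⟩ hne'
      have hm' : ∀ j, ![f', nop x f', g', nop x g'] j ∈
          perp ![f, nop x f, g, nop x g] := by
        intro j; fin_cases j
        exacts [hf'.2, (hi' _ hf').2, hg'.2, (hi' _ hg').2]
      have hm'' : ∀ j, ![f', nop x f', g', nop x g'] j ∈ W := by
        intro j; fin_cases j
        exacts [hf'.1, (hi' _ hf').1, hg'.1, (hi' _ hg').1]
      exact not_gram_lt (gram_orth (gram_orth (gram3 b) (gram4 b') ho) (gram4 b'') fun i j => by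
        rw [Bf_comm]
        rcases i with i | i
        exacts [mem_perp.mp (hm'' j) i, mem_perp.mp (hm' j) i]) (by simp)
    have e4 : n4 f (nop x f) g (nop x g) u = n4 f (nop x f) g (nop x g) r := by
      have o2 : ∀ i, Bf (![v, nop x v, nop x (nop x v)] i) (nop x g) = 0 := fun i => ho i 3
      have o1 : ∀ i, Bf (![v, nop x v, nop x (nop x v)] i) (nop x f) = 0 := fun i => ho i 1
      have ev : n4 f (nop x f) g (nop x g) v = 0 := n4_perp (o2 0) (o1 0)
      have ew : n4 f (nop x f) g (nop x g) (nop x v) = 0 := n4_perp (o2 1) (o1 1)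
      have ez : n4 f (nop x f) g (nop x g) (nop x (nop x v)) = 0 := n4_perp (o2 2) (o1 2)
      rw [hu]
      simp only [map_add, map_smul, ev, ew, ez, smul_zero, zero_add]
    rw [LinearMap.add_apply, nop_eq_n3 hx b hu h2 h3, e4,
      nop_eq_n4 b' (hW2 f hf) (hW2 g hg) hr k2 k4, hr0, add_zero]
  simp only [not_forall] at hW2
  obtain ⟨u₃, hu₃W, hu₃⟩ := hW2
  obtain ⟨v₁, hv₁W, hv₁⟩ : ∃ v₁ ∈ W, qN x v₁ ≠ 0 := by
    by_contra hc
    simp only [not_exists, not_and, not_not] at hc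
    refine hu₃ (hnd _ (hi _ (hi _ hu₃W)) fun w hw => ?_)
    have h := qN_add hx u₃ w
    rw [hc _ (W.add_mem hu₃W hw), hc _ hu₃W, hc _ hw] at h
    linear_combination h + Bf (nop x (nop x u₃)) w * three_eq_zero
  obtain ⟨t', b'⟩ := exists_b3 hx (v := v₁) rfl hv₁
  have hv'W : v₁ + t' • nop x (nop x v₁) ∈ W :=
    W.add_mem hv₁W (W.smul_mem _ (hi _ (hi _ hv₁W)))
  generalize v₁ + t' • nop x (nop x v₁) = v' at b' hv'W
  generalize qN x v₁ = c at b' hv₁
  have hm : ∀ j, ![v', nop x v', nop x (nop x v')] j ∈ W := by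
    intro j; fin_cases j
    exacts [hv'W, hi _ hv'W, hi _ (hi _ hv'W)]
  have ho : ∀ i j, Bf (![v, nop x v, nop x (nop x v)] i) (![v', nop x v', nop x (nop x v')] j) = 0 :=
    fun i j => by rw [Bf_comm]; exact mem_perp.mp (hm j) i
  have hsh : ShapeD a c x := by
    refine ⟨v, _, _, v', _, _, b, b', ho, LinearMap.ext fun u => ?_⟩
    obtain ⟨α, β, γ, r, hu, h1, h2, h3⟩ := decomp3 b u
    obtain ⟨α', β', γ', r', hr, k1, k2, k3⟩ := decomp3 b' r
    have hi' : Inv x (W ⊓ perp ![v', nop x v', nop x (nop x v')]) := fun w hw =>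
      ⟨hi w hw.1, perp3_inv hx v' w hw.2⟩
    have hr'm : r' ∈ W ⊓ perp ![v', nop x v', nop x (nop x v')] := by
      refine ⟨?_, mem_perp3 k1 k2 k3⟩
      have e : r' = r - (α' • v' + β' • nop x v' + γ' • nop x (nop x v')) := by rw [hr]; abel
      rw [e]
      exact W.sub_mem (hrmem h1 h2 h3) (add_mem (add_mem (W.smul_mem _ hv'W)
        (W.smul_mem _ (hi _ hv'W))) (W.smul_mem _ (hi _ (hi _ hv'W))))
    have hg6 : GramNd (Sum.elim ![v, nop x v, nop x (nop x v)]
        ![v', nop x v', nop x (nop x v')]) := gram_orth (gram3 b) (gram3 b') ho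
    have hperp6 : ∀ w ∈ W ⊓ perp ![v', nop x v', nop x (nop x v')],
        ∀ i, Bf (Sum.elim ![v, nop x v, nop x (nop x v)] ![v', nop x v', nop x (nop x v')] i) w
          = 0 := fun w hw i => by
      rw [Bf_comm]
      rcases i with i | i
      exacts [mem_perp.mp hw.1 i, mem_perp.mp hw.2 i]
    have hnd' : Nd (W ⊓ perp ![v', nop x v', nop x (nop x v')]) := nd_inter hnd hm (hdec3 b')
    have hr0 : nop x r' = 0 := by
      by_contra hne'
      by_cases hz : ∀ w ∈ W ⊓ perp ![v', nop x v', nop x (nop x v')], nop x (nop x w) = 0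
      · obtain ⟨f', hf', g', hg', b''⟩ := exists_b4 hx hi' hnd' hz hr'm hne'
        have hm' : ∀ j, ![f', nop x f', g', nop x g'] j ∈
            W ⊓ perp ![v', nop x v', nop x (nop x v')] := by
          intro j; fin_cases j
          exacts [hf', hi' _ hf', hg', hi' _ hg']
        exact not_gram_lt (gram_orth hg6 (gram4 b'') fun i j => hperp6 _ (hm' j) i) (by simp)
      · simp only [not_forall] at hz
        obtain ⟨w, hw, hwne⟩ := hz
        obtain ⟨v₂, hv₂, hq₂⟩ := exists_qN_mem hx hi' hnd' hw hwne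
        obtain ⟨t₂, b''⟩ := exists_b3 hx (v := v₂) rfl hq₂
        have hv₂' := Submodule.add_mem _ hv₂ (Submodule.smul_mem _ t₂ (hi' _ (hi' _ hv₂)))
        refine not_gram_lt (gram_orth hg6 (gram3 b'') fun i j => hperp6 _ ?_ i) (by simp)
        fin_cases j
        exacts [hv₂', hi' _ hv₂', hi' _ (hi' _ hv₂')]
    have e3 : n3 c v' (nop x v') (nop x (nop x v')) u =
        n3 c v' (nop x v') (nop x (nop x v')) r := by
      have ev := n3_perp (a := c) (v := v') (ho 0 1) (ho 0 2)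
      have ew := n3_perp (a := c) (v := v') (ho 1 1) (ho 1 2)
      have ez := n3_perp (a := c) (v := v') (ho 2 1) (ho 2 2)
      simp only [Matrix.cons_val_zero, Matrix.cons_val_one, Matrix.cons_val, Matrix.head_cons] at ev ew ez
      rw [hu]
      simp only [map_add, map_smul, ev, ew, ez, smul_zero, zero_add]
    rw [LinearMap.add_apply, nop_eq_n3 hx b hu h2 h3, e3, nop_eq_n3 hx b' hr k2 k3, hr0, add_zero]
  have ha1 : a = 1 := by
    rcases hpri with h | h
    · exact h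
    · exfalso
      rcases unit_cases ha with h1 | h1
      · have hv1 : qN x v = 1 := by rw [qN, ← B02 hx, b.vz, h1]
        exact h v hv1
      · have hc : c = -1 := by
          rcases unit_cases hv₁ with h2 | h2
          · exact absurd (show qN x v' = 1 by rw [qN, ← B02 hx, b'.vz, h2]) (h v')
          · exact h2
        refine h (v + v') ?_
        rw [qN_add hx, qN, qN, ← B02 hx, b.vz, ← B02 hx, b'.vz, h1, hc,
          show Bf (nop x (nop x v)) v' = 0 from ho 2 0]
        decide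
  rcases unit_cases hv₁ with h2 | h2
  · right; right; left; rwa [ha1, h2] at hsh
  · right; right; right; rwa [ha1, h2] at hsh

end CfsgLib.O83
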