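import Cfsg.Agent.Lib.Classes.OmegaEightThree.Invariants
import Cfsg.Agent.Lib.Triality.Autos
import Cfsg.Agent.Lib.Classes.OmegaOdd

/-!
The triality automorphisms on the thirteen representatives of `PΩ⁺₈(3)`.
-/

set_option autoImplicit false
set_option linter.unusedSimpArgs false
set_option linter.unusedVariables false

namespace CfsgLib.O83

open CfsgLib.OrthGen

/-- The commutator subgroup. -/
abbrev Om8 : Subgroup G8 := Cfsg.Omega F3 (⇑Q8)

lemma mem_Om (g : G8) :
    g ∈ Om8 ↔ CfsgLib.Classes.detHom Q8 g = 1 ∧ spinSign Q8 1 g = 1 :=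
  CfsgLib.Classes.mem_omega_iff two_ne_zero8 nondeg_Q8 (by simp) g

lemma spin_eq_one_of_odd {g : G8} {k : ℕ} (hk : Odd k) (h : g ^ k = 1) :
    spinSign Q8 1 g = 1 := by
  have := congrArg (spinSign Q8 1) h
  rw [map_pow, map_one] at this
  rcases Int.units_eq_one_or (spinSign Q8 1 g) with e | e
  · exact e
  · rw [e, hk.neg_one_pow] at this
    exact absurd this (by decide)

lemma det_eq_one_of_odd {g : G8} {k : ℕ} (hk : Odd k) (h : g ^ k = 1) :
    CfsgLib.Classes.detHom Q8 g = 1 := by
  have := congrArg (CfsgLib.Classes.detHom Q8) h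
  rw [map_pow, map_one] at this
  generalize CfsgLib.Classes.detHom Q8 g = d at this
  rcases eq_or_ne d 0 with rfl | hd
  · rw [zero_pow (by rintro rfl; simp at hk)] at this
    exact absurd this (by decide)
  · rcases unit_cases hd with e | e
    · exact e
    · rw [e, hk.neg_one_pow] at this
      exact absurd this (by decide)

lemma mem_Om_of_cube {g : G8} (h : g ^ 3 = 1) : g ∈ Om8 :=
  (mem_Om g).mpr ⟨det_eq_one_of_odd (by decide : Odd 3) h, spin_eq_one_of_odd (by decide : Odd 3) h⟩

/-- A representative as an element of the commutator subgroup. -/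
noncomputable def repOm (k : Fin 13) : ↥Om8 := ⟨reps k, mem_Om_of_cube (reps_pow_three k)⟩

lemma conjTwo_all : ∀ k, (conjTwo k).all (fun v => decide (bfc v v ≠ 0)) = true := by
  decide +kernel

lemma conjThree_all : ∀ k, (conjThree k).all (fun v => decide (bfc v v ≠ 0)) = true := by
  decide +kernel

lemma conjTwo_ne (k : Fin 13) : ∀ v ∈ conjTwo k, Q8 v ≠ 0 := fun v hv =>
  Q8_ne_zero_of (of_decide_eq_true (List.all_eq_true.mp (conjTwo_all k) v hv))

lemma conjThree_ne (k : Fin 13) : ∀ v ∈ conjThree k, Q8 v ≠ 0 := fun v hv =>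
  Q8_ne_zero_of (of_decide_eq_true (List.all_eq_true.mp (conjThree_all k) v hv))

lemma conjTwo_signs : ∀ k, (-1 : F3) ^ (conjTwo k).length = 1 ∧ signC (conjTwo k) = 1 := by
  decide +kernel

lemma conjThree_signs : ∀ k, (-1 : F3) ^ (conjThree k).length = 1 ∧ signC (conjThree k) = 1 := by
  decide +kernel

/-- The conjugating element for the second companion. -/
noncomputable def cTwo (k : Fin 13) : ↥Om8 :=
  ⟨prodR (conjTwo k) (conjTwo_ne k),
    (mem_Om _).mpr ⟨by rw [det_prodR]; exact (conjTwo_signs k).1,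
      by rw [spin_prodR]; exact (conjTwo_signs k).2⟩⟩

/-- The conjugating element for the third companion. -/
noncomputable def cThree (k : Fin 13) : ↥Om8 :=
  ⟨prodR (conjThree k) (conjThree_ne k),
    (mem_Om _).mpr ⟨by rw [det_prodR]; exact (conjThree_signs k).1,
      by rw [spin_prodR]; exact (conjThree_signs k).2⟩⟩

/-- The second companion. -/
noncomputable def compTwo (k : Fin 13) : ↥Om8 := (cTwo k)⁻¹ * repOm (perm2 k) * cTwo k

/-- The third companion. -/
noncomputable def compThree (k : Fin 13) : ↥Om8 := (cThree k)⁻¹ * repOm (perm3 k) * cThree k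

/-- A linear map from its columns, in coordinates. -/
def colApply (c : I8 → V8) (u : V8) : V8 := ∑ i, u i • c i

lemma colS_eq : ∀ (k : Fin 13) (i : I8), repC k (Pi.single i 1) = colS k i := by
  decide +kernel

lemma colTwo_eq : ∀ (k : Fin 13) (i : I8),
    prodC (conjTwo k).reverse (repC (perm2 k) (prodC (conjTwo k) (Pi.single i 1))) = colTwo k i := by
  decide +kernel

lemma colThree_eq : ∀ (k : Fin 13) (i : I8),
    prodC (conjThree k).reverse (repC (perm3 k) (prodC (conjThree k) (Pi.single i 1))) =
      colThree k i := by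
  decide +kernel

lemma lin_eq_colApply (x : G8) (c : I8 → V8) (h : ∀ i, lin x (Pi.single i 1) = c i) (u : V8) :
    lin x u = colApply c u := by
  have hu : u = ∑ i, u i • (Pi.single i (1 : F3) : V8) := by
    ext j
    simp [Finset.sum_apply, Pi.single_apply]
  conv_lhs => rw [hu]
  simp only [map_sum, map_smul, h]
  rfl

lemma lin_compTwo (k : Fin 13) (u : V8) : lin (compTwo k : G8) u = colApply (colTwo k) u := by
  refine lin_eq_colApply _ _ (fun i => ?_) u
  rw [compTwo, cTwo, repOm]
  simp only [Subgroup.coe_mul, Subgroup.coe_inv, lin_mul, lin_prodR, lin_prodR_inv, lin_reps]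
  exact colTwo_eq k i

lemma lin_compThree (k : Fin 13) (u : V8) : lin (compThree k : G8) u = colApply (colThree k) u := by
  refine lin_eq_colApply _ _ (fun i => ?_) u
  rw [compThree, cThree, repOm]
  simp only [Subgroup.coe_mul, Subgroup.coe_inv, lin_mul, lin_prodR, lin_prodR_inv, lin_reps]
  exact colThree_eq k i

lemma lin_repOm (k : Fin 13) (u : V8) : lin (repOm k : G8) u = colApply (colS k) u :=
  lin_eq_colApply _ _ (fun i => by rw [repOm, lin_reps]; exact colS_eq k i) u

lemma tri_table : ∀ (k : Fin 13) (i j : I8),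
    colApply (colS k) (CfsgLib.Triality.mul (Pi.single i 1) (Pi.single j 1)) =
      CfsgLib.Triality.mul (colTwo k i) (colThree k j) := by
  decide +kernel

/-- The product of vector matrices as a bilinear map. -/
noncomputable def mulLin : V8 →ₗ[F3] V8 →ₗ[F3] V8 :=
  LinearMap.mk₂ F3 CfsgLib.Triality.mul CfsgLib.Triality.mul_add_left
    CfsgLib.Triality.mul_smul_left CfsgLib.Triality.mul_add_right CfsgLib.Triality.mul_smul_right

theorem tri_mul (k : Fin 13) (u v : V8) :
    lin (repOm k : G8) (CfsgLib.Triality.mul u v) =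
      CfsgLib.Triality.mul (lin (compTwo k : G8) u) (lin (compThree k : G8) v) := by
  have h : mulLin.compr₂ (lin (repOm k : G8)) =
      mulLin.compl₁₂ (lin (compTwo k : G8)) (lin (compThree k : G8)) :=
    (Pi.basisFun F3 I8).ext fun i => (Pi.basisFun F3 I8).ext fun j => by
      simp only [LinearMap.compr₂_apply, LinearMap.compl₁₂_apply, mulLin, LinearMap.mk₂_apply,
        Pi.basisFun_apply, lin_repOm, lin_compTwo, lin_compThree, tri_table]
      congr 1 <;> simp [colApply, Pi.single_apply]
  exact LinearMap.congr_fun₂ h u v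

/-- The simple group. -/
abbrev H8 : Type := Cfsg.POmega F3 (Cfsg.quadFormPlus 4 F3)

/-- The class of an element of the commutator subgroup. -/
noncomputable def pr : ↥Om8 →* H8 := QuotientGroup.mk' (Subgroup.center ↥Om8)

theorem hasTri_rep (k : Fin 13) :
    CfsgLib.Triality.HasTri (F := F3) (repOm k) (compTwo k) (compThree k) :=
  ⟨1, one_ne_zero, fun u v => by
    rw [one_smul]
    exact tri_mul k u v⟩

theorem phi2_rep (k : Fin 13) :
    CfsgLib.Triality.phi2 (F := F3) (pr (repOm k)) = pr (compTwo k) :=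
  (CfsgLib.Triality.phiHom_apply (hasTri_rep k)).1

theorem phi3_rep (k : Fin 13) :
    CfsgLib.Triality.phi3 (F := F3) (pr (repOm k)) = pr (compThree k) :=
  (CfsgLib.Triality.phiHom_apply (hasTri_rep k)).2

end CfsgLib.O83
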