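import Cfsg.Agent.Lib.Classes.OmegaEightThree.Signs

/-!
Invariants separating the standard elements up to conjugation and inversion.
-/

set_option autoImplicit false
set_option linter.unusedSimpArgs false
set_option linter.unusedVariables false

namespace CfsgLib.O83

/-- `(x - 1)²` vanishes. -/
def SqZero (x : G8) : Prop := ∀ u, nop x (nop x u) = 0

/-- `B((x-1)²u, u)` takes the value `a`. -/
def Takes (a : F3) (x : G8) : Prop := ∃ u, qN x u = a

/-- The image of `x-1` is spanned by two vectors. -/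
def RankTwo (x : G8) : Prop := ∃ p q, ∀ u, ∃ a b : F3, nop x u = a • p + b • q

/-- A singular vector outside the kernel of `(x-1)²`. -/
def Isotropic (x : G8) : Prop := ∃ u, qN x u = 0 ∧ nop x (nop x u) ≠ 0

/-- The invariant of an element. -/
def Inv4 (x y : G8) : Prop :=
  (SqZero x ↔ SqZero y) ∧ (∀ a, Takes a x ↔ Takes a y) ∧ (RankTwo x ↔ RankTwo y) ∧
    (Isotropic x ↔ Isotropic y)

lemma nop_conj (g x : G8) (u : V8) : nop (g * x * g⁻¹) (lin g u) = lin g (nop x u) := by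
  have h : lin (g * x * g⁻¹) (lin g u) = lin g (lin x u) := by
    rw [← lin_mul, inv_mul_cancel_right, lin_mul]
  rw [lin_eq, lin_eq x, map_add] at h
  exact add_left_cancel h

lemma inv4_conj (g x : G8) : Inv4 x (g * x * g⁻¹) := by
  have hN : ∀ u, nop (g * x * g⁻¹) (nop (g * x * g⁻¹) (lin g u)) = lin g (nop x (nop x u)) :=
    fun u => by rw [nop_conj, nop_conj]
  have hq : ∀ u, qN (g * x * g⁻¹) (lin g u) = qN x u := fun u => by rw [qN, hN, Bf_lin, qN]
  have hs : ∀ v, ∃ u, lin g u = v := fun v =>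
    ⟨lin g⁻¹ v, by rw [← lin_mul, mul_inv_cancel, lin_one]⟩
  have hi : Function.Injective (lin g) := fun p q h => by
    have := congrArg (lin g⁻¹) h
    rwa [← lin_mul, ← lin_mul, inv_mul_cancel, lin_one, lin_one] at this
  have h0 : ∀ u, lin g u = 0 ↔ u = 0 := fun u => by
    rw [← map_zero (lin g)]
    exact hi.eq_iff
  refine ⟨⟨fun h v => ?_, fun h u => ?_⟩, fun a => ⟨?_, ?_⟩, ⟨?_, ?_⟩,
    ⟨?_, ?_⟩⟩
  · obtain ⟨u, rfl⟩ := hs v
    rw [hN, h, map_zero]
  · rw [← h0, ← hN]; exact h _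
  · rintro ⟨u, hu⟩; exact ⟨lin g u, by rw [hq, hu]⟩
  · rintro ⟨v, hv⟩
    obtain ⟨u, rfl⟩ := hs v
    exact ⟨u, by rw [← hq, hv]⟩
  · rintro ⟨p, q, h⟩
    refine ⟨lin g p, lin g q, fun v => ?_⟩
    obtain ⟨u, rfl⟩ := hs v
    obtain ⟨a, b, hab⟩ := h u
    exact ⟨a, b, by rw [nop_conj, hab, map_add, map_smul, map_smul]⟩
  · rintro ⟨p, q, h⟩
    obtain ⟨p', rfl⟩ := hs p
    obtain ⟨q', rfl⟩ := hs q
    refine ⟨p', q', fun u => ?_⟩
    obtain ⟨a, b, hab⟩ := h (lin g u)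
    refine ⟨a, b, hi ?_⟩
    rw [← nop_conj, hab, map_add, map_smul, map_smul]
  · rintro ⟨u, hu, hne⟩; exact ⟨lin g u, by rw [hq, hu], by rw [hN, Ne, h0]; exact hne⟩
  · rintro ⟨v, hv, hne⟩
    obtain ⟨u, rfl⟩ := hs v
    exact ⟨u, by rw [← hq, hv], by rwa [hN, Ne, h0] at hne⟩

lemma four_eq_one : (4 : F3) = 1 := by decide

lemma nop_sq (x : G8) (u : V8) : nop (x * x) u = (2 : F3) • nop x u + nop x (nop x u) := by
  have h : lin (x * x) u = lin x (lin x u) := lin_mul x x u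
  rw [lin_eq, lin_eq x, lin_eq x, map_add] at h
  rw [two_smul]
  apply add_left_cancel (a := u)
  rw [h]; abel

lemma inv4_sq {x : G8} (hx : x ^ 3 = 1) : Inv4 x (x * x) := by
  have hN : ∀ u, nop (x * x) (nop (x * x) u) = nop x (nop x u) := fun u => by
    simp only [nop_sq, map_add, map_smul, nop_cube hx, map_zero, add_zero, smul_zero, smul_add,
      smul_smul]
    simp [show (2 : F3) * 2 = 1 by decide]
  have hq : ∀ u, qN (x * x) u = qN x u := fun u => by rw [qN, hN, qN]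
  refine ⟨by simp only [SqZero, hN], fun a => by simp only [Takes, hq],
    ⟨?_, ?_⟩, by simp only [Isotropic, hN, hq]⟩
  · rintro ⟨p, q, h⟩
    refine ⟨p, q, fun u => ?_⟩
    obtain ⟨a, b, hab⟩ := h ((2 : F3) • u + nop x u)
    exact ⟨a, b, by rw [nop_sq, ← hab, map_add, map_smul]⟩
  · rintro ⟨p, q, h⟩
    refine ⟨p, q, fun u => ?_⟩
    obtain ⟨a, b, hab⟩ := h ((2 : F3) • u + (2 : F3) • nop x u)
    refine ⟨a, b, ?_⟩
    rw [← hab, nop_sq]
    simp only [map_add, map_smul, nop_cube hx, add_zero, smul_add, smul_smul]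
    funext i
    simp only [Pi.add_apply, Pi.smul_apply, Pi.zero_apply, smul_eq_mul, map_zero, mul_zero, add_zero]
    linear_combination (-nop x u i - 2 * nop x (nop x u) i) * three_eq_zero

lemma Inv4.trans {x y z : G8} (h : Inv4 x y) (h' : Inv4 y z) : Inv4 x z :=
  ⟨h.1.trans h'.1, fun a => (h.2.1 a).trans (h'.2.1 a), h.2.2.1.trans h'.2.2.1,
    h.2.2.2.trans h'.2.2.2⟩

lemma Inv4.symm {x y : G8} (h : Inv4 x y) : Inv4 y x :=
  ⟨h.1.symm, fun a => (h.2.1 a).symm, h.2.2.1.symm, h.2.2.2.symm⟩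

/-- The squares of `z - 1` for the standard elements. -/
def sqC : Fin 8 → V8 → V8 :=
  ![fun _ => 0, fun _ => 0, fun u => vec 0 0 0 0 (u (.inl 0)) 0 0 0,
    fun u => vec 0 0 0 0 (-u (.inl 0)) 0 0 0, fun u => vec 0 0 0 0 (u (.inl 0)) 0 0 0,
    fun u => vec 0 0 0 0 (-u (.inl 0)) 0 0 0, fun u => vec 0 0 0 0 (u (.inl 0)) 0 (u (.inl 2)) 0,
    fun u => vec 0 0 0 0 (u (.inl 0)) 0 (-u (.inl 2)) 0]

lemma nop_sq_zStd (i : Fin 8) (u : V8) : nop (zStd i) (nop (zStd i) u) = sqC i u := by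
  rw [nop_zStd, nop_zStd]
  have hb : ∀ j : I8, stdC i (stdC i (Pi.single j 1)) = sqC i (Pi.single j 1) := by
    revert i
    decide +kernel
  have hl : (nop (zStd i)) ∘ₗ (nop (zStd i)) = (Pi.basisFun F3 I8).constr F3
      fun j => sqC i (Pi.single j 1) := (Pi.basisFun F3 I8).ext fun j => by
    rw [Module.Basis.constr_basis, LinearMap.comp_apply, Pi.basisFun_apply, nop_zStd, nop_zStd, hb]
  have h := LinearMap.congr_fun hl u
  rw [LinearMap.comp_apply, nop_zStd, nop_zStd] at h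
  rw [h, Module.Basis.constr_apply_fintype]
  ext (k | k) <;> fin_cases k <;> fin_cases i <;>
    simp [sqC, vec, Fintype.sum_sum_type, Fin.sum_univ_four, Pi.single_apply]

/-- The value of `B((z-1)²u, u)` in terms of two coordinates. -/
def qC : Fin 8 → F3 → F3 → F3 :=
  ![fun _ _ => 0, fun _ _ => 0, fun a _ => a * a, fun a _ => -(a * a), fun a _ => a * a,
    fun a _ => -(a * a), fun a b => a * a + b * b, fun a b => a * a - b * b]

lemma qN_zStd (i : Fin 8) (u : V8) : qN (zStd i) u = qC i (u (.inl 0)) (u (.inl 2)) := by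
  rw [qN, nop_sq_zStd, ← bfc_eq]
  fin_cases i <;> simp [qC, sqC, bfc, vec] <;> ring

lemma takes_iff (i : Fin 8) (a : F3) : Takes a (zStd i) ↔ ∃ p q, qC i p q = a := by
  constructor
  · rintro ⟨u, hu⟩
    exact ⟨_, _, (qN_zStd i u).symm.trans hu⟩
  · rintro ⟨p, q, h⟩
    exact ⟨vec p 0 q 0 0 0 0 0, by rw [qN_zStd]; exact h⟩

lemma sqZero_zStd : ∀ i : Fin 8, SqZero (zStd i) ↔ i = 0 ∨ i = 1 := by
  intro i
  constructor
  · intro h
    have h' := h sv
    rw [nop_sq_zStd] at h'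
    clear h
    revert h'
    revert i
    decide +kernel
  · rintro (rfl | rfl) <;> intro u <;> rw [nop_sq_zStd] <;> rfl

lemma rankTwo_std {i : Fin 8} (hi : i = 0 ∨ i = 2 ∨ i = 3) : RankTwo (zStd i) := by
  rcases hi with rfl | rfl | rfl
  · exact ⟨sh, sk, fun u => ⟨-bfc u sk, bfc u sh, by rw [nop_zStd]; rfl⟩⟩
  · exact ⟨sw, sz, fun u => ⟨1 * bfc u sz, -1 * (bfc u sw + bfc u sz), by rw [nop_zStd]; rfl⟩⟩
  · exact ⟨mw, mz, fun u => ⟨-1 * bfc u mz, - -1 * (bfc u mw + bfc u mz), by rw [nop_zStd]; rfl⟩⟩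

/-- Four vectors with independent images. -/
def indepVecs : Fin 8 → Fin 4 → V8 :=
  ![fun _ => 0, ![sf, sg, sv, rg], fun _ => 0, fun _ => 0, ![sv, sw, sf, sg], ![sv, mw, sf, sg],
    fun _ => 0, fun _ => 0]

lemma not_rankTwo_std {i : Fin 8} (hi : i = 1 ∨ i = 4 ∨ i = 5) : ¬ RankTwo (zStd i) := by
  rintro ⟨p, q, h⟩
  have hinj : ∀ c : Fin 4 → F3, stdC i (∑ k, c k • indepVecs i k) = 0 → c = 0 := by
    clear h
    rcases hi with rfl | rfl | rfl <;> decide +kernel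
  choose a b hab using fun c : Fin 4 → F3 => h (∑ k, c k • indepVecs i k)
  have hinj' : Function.Injective fun c : Fin 4 → F3 => (a c, b c) := by
    intro c c' hcc
    simp only [Prod.mk.injEq] at hcc
    refine sub_eq_zero.mp (hinj _ ?_)
    rw [← nop_zStd]
    simp only [Pi.sub_apply, sub_smul, Finset.sum_sub_distrib, map_sub, hab, hcc.1, hcc.2, sub_self]
  have h81 := Fintype.card_le_of_injective _ hinj'
  simp [Fintype.card_fun] at h81

lemma isotropic_seven : Isotropic (zStd 7) :=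
  ⟨vec 1 0 1 0 0 0 0 0, by rw [qN_zStd]; decide +kernel, by rw [nop_sq_zStd]; decide +kernel⟩

lemma not_isotropic_six : ¬ Isotropic (zStd 6) := by
  rintro ⟨u, hu, hne⟩
  rw [qN_zStd] at hu
  apply hne
  have key : ∀ p q : F3, qC 6 p q = 0 → p = 0 ∧ q = 0 := by decide +kernel
  obtain ⟨hp, hq⟩ := key _ _ hu
  rw [nop_sq_zStd]
  ext (k | k) <;> fin_cases k <;> simp [sqC, vec, hp, hq]

set_option synthInstance.maxSize 2000 in
theorem inv4_injective {i j : Fin 8} (h : Inv4 (zStd i) (zStd j)) : i = j := by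
  obtain ⟨h1, h2, h3, h4⟩ := h
  rw [sqZero_zStd, sqZero_zStd] at h1
  have hp := h2 1
  have hm := h2 (-1)
  rw [takes_iff, takes_iff] at hp hm
  have key : ∀ i j : Fin 8, (i = 0 ∨ i = 1 ↔ j = 0 ∨ j = 1) →
      ((∃ p q, qC i p q = 1) ↔ ∃ p q, qC j p q = 1) →
      ((∃ p q, qC i p q = -1) ↔ ∃ p q, qC j p q = -1) →
      i = j ∨ ((i = 0 ∨ i = 2 ∨ i = 3) ∧ (j = 1 ∨ j = 4 ∨ j = 5)) ∨
        ((j = 0 ∨ j = 2 ∨ j = 3) ∧ (i = 1 ∨ i = 4 ∨ i = 5)) ∨
        (i = 6 ∧ j = 7) ∨ (i = 7 ∧ j = 6) := by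
    decide +kernel
  rcases key i j h1 hp hm with h | ⟨ha, hb⟩ | ⟨ha, hb⟩ | ⟨rfl, rfl⟩ | ⟨rfl, rfl⟩
  · exact h
  · exact absurd (h3.mp (rankTwo_std ha)) (not_rankTwo_std hb)
  · exact absurd (h3.mpr (rankTwo_std ha)) (not_rankTwo_std hb)
  · exact absurd (h4.mpr isotropic_seven) not_isotropic_six
  · exact absurd (h4.mp isotropic_seven) not_isotropic_six

end CfsgLib.O83
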