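import Cfsg.Agent.Lib.TT.OrthEightThreeExt
import Cfsg.Agent.Lib.Classes.OmegaEightThree.Data

/-!
Orbits of an extension by `Sym(3)` on thirteen classes of subgroups, from the action of two generators.
-/

set_option autoImplicit false
set_option linter.unusedSimpArgs false
set_option linter.unusedVariables false

namespace CfsgLib.O83

universe u v

variable {H : Type u} [Group H]

/-- Conjugacy of subgroups. -/
def Rel (X Y : Subgroup H) : Prop := ∃ g : H, X.map (MulAut.conj g).toMonoidHom = Y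

lemma map_aut_mul (φ χ : MulAut H) (X : Subgroup H) :
    X.map (φ * χ).toMonoidHom = (X.map χ.toMonoidHom).map φ.toMonoidHom := by
  rw [Subgroup.map_map]
  rfl

lemma map_aut_one (X : Subgroup H) : X.map (1 : MulAut H).toMonoidHom = X := Subgroup.map_id X

lemma Rel.symm {X Y : Subgroup H} (h : Rel X Y) : Rel Y X := by
  obtain ⟨g, rfl⟩ := h
  refine ⟨g⁻¹, ?_⟩
  rw [← map_aut_mul, ← map_mul, inv_mul_cancel, map_one, map_aut_one]

lemma Rel.trans {X Y W : Subgroup H} (h : Rel X Y) (h' : Rel Y W) : Rel X W := by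
  obtain ⟨g, rfl⟩ := h
  obtain ⟨g', rfl⟩ := h'
  exact ⟨g' * g, by rw [map_mul, map_aut_mul]⟩

lemma conj_comm_aut (φ : MulAut H) (g : H) :
    φ * MulAut.conj g = MulAut.conj (φ g) * φ := by
  ext x
  simp

lemma Rel.map {X Y : Subgroup H} (h : Rel X Y) (φ : MulAut H) :
    Rel (X.map φ.toMonoidHom) (Y.map φ.toMonoidHom) := by
  obtain ⟨g, rfl⟩ := h
  exact ⟨φ g, by rw [← map_aut_mul, ← map_aut_mul, conj_comm_aut]⟩

/-- The orbit of a class. -/
def lab : Fin 13 → Fin 7 := ![0, 2, 2, 1, 1, 1, 2, 3, 3, 3, 4, 5, 6]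

/-- A representative of an orbit. -/
def orbRep : Fin 7 → Fin 13 := ![0, 5, 6, 7, 10, 11, 12]

lemma lab_orbRep : ∀ i, lab (orbRep i) = i := by decide

lemma lab_perm : ∀ k, lab (perm2 k) = lab k ∧ lab (perm3 k) = lab k := by decide +kernel

lemma lab_word : ∀ k, k = orbRep (lab k) ∨ perm2 k = orbRep (lab k) ∨ perm3 k = orbRep (lab k) ∨
    perm2 (perm3 k) = orbRep (lab k) := by decide +kernel

variable (H) in
/-- Thirteen classes of subgroups with two automorphisms permuting them. -/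
structure ClassData where
  /-- The subgroups. -/
  Z : Fin 13 → Subgroup H
  card_Z : ∀ k, Nat.card (Z k) = 3
  eq_of_rel : ∀ {i j}, Rel (Z i) (Z j) → i = j
  exists_rel : ∀ {X : Subgroup H}, Nat.card X = 3 → ∃ k, Rel X (Z k)
  /-- The first automorphism. -/
  f2 : MulAut H
  /-- The second automorphism. -/
  f3 : MulAut H
  rel_two : ∀ k, Rel ((Z k).map f2.toMonoidHom) (Z (perm2 k))
  rel_three : ∀ k, Rel ((Z k).map f3.toMonoidHom) (Z (perm3 k))

namespace ClassData

variable (D : ClassData H)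

/-- An automorphism preserves the orbits. -/
def Preserves (φ : MulAut H) : Prop :=
  ∀ k j, Rel ((D.Z k).map φ.toMonoidHom) (D.Z j) → lab k = lab j

lemma preserves_inn {φ : MulAut H} (h : φ ∈ Cfsg.Inn H) : D.Preserves φ := by
  obtain ⟨y, rfl⟩ := h
  intro k j hr
  have h1 : Rel (D.Z k) ((D.Z k).map (MulAut.conj y).toMonoidHom) := ⟨y, rfl⟩
  rw [D.eq_of_rel (h1.trans hr)]

lemma preserves_mul {φ χ : MulAut H} (h : D.Preserves φ) (h' : D.Preserves χ) :
    D.Preserves (φ * χ) := by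
  intro k j hr
  rw [map_aut_mul] at hr
  obtain ⟨m, hm⟩ := D.exists_rel (X := (D.Z k).map χ.toMonoidHom)
    ((Nat.card_congr (χ.subgroupMap (D.Z k)).toEquiv).symm.trans (D.card_Z k))
  rw [h' k m hm]
  exact h m j ((hm.map φ).symm.trans hr)

lemma preserves_two : D.Preserves D.f2 := fun k j hr => by
  rw [← D.eq_of_rel ((D.rel_two k).symm.trans hr), (lab_perm k).1]

lemma preserves_three : D.Preserves D.f3 := fun k j hr => by
  rw [← D.eq_of_rel ((D.rel_three k).symm.trans hr), (lab_perm k).2]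

lemma preserves_of_mem (h2 : (QuotientGroup.mk D.f2 : Cfsg.Out H) * QuotientGroup.mk D.f2 = 1)
    (h3 : (QuotientGroup.mk D.f3 : Cfsg.Out H) * QuotientGroup.mk D.f3 = 1) {φ : MulAut H}
    (h : (QuotientGroup.mk φ : Cfsg.Out H) ∈
      Subgroup.closure {QuotientGroup.mk D.f2, QuotientGroup.mk D.f3}) : D.Preserves φ := by
  obtain ⟨χ, hχ, he⟩ : ∃ χ, D.Preserves χ ∧
      (QuotientGroup.mk χ : Cfsg.Out H) = QuotientGroup.mk φ := by
    refine Subgroup.closure_induction_left
      (p := fun x _ => ∃ χ, D.Preserves χ ∧ (QuotientGroup.mk χ : Cfsg.Out H) = x) ?_ ?_ ?_ h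
    · exact ⟨1, D.preserves_inn (one_mem _), QuotientGroup.mk_one _⟩
    · rintro x (rfl | rfl) y hy ⟨χ, hχ, rfl⟩
      · exact ⟨D.f2 * χ, D.preserves_mul D.preserves_two hχ, QuotientGroup.mk_mul _ _ _⟩
      · exact ⟨D.f3 * χ, D.preserves_mul D.preserves_three hχ, QuotientGroup.mk_mul _ _ _⟩
    · rintro x (rfl | rfl) y hy ⟨χ, hχ, rfl⟩
      · rw [inv_eq_of_mul_eq_one_left h2]
        exact ⟨D.f2 * χ, D.preserves_mul D.preserves_two hχ, QuotientGroup.mk_mul _ _ _⟩
      · rw [inv_eq_of_mul_eq_one_left h3]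
        exact ⟨D.f3 * χ, D.preserves_mul D.preserves_three hχ, QuotientGroup.mk_mul _ _ _⟩
  have h1 := QuotientGroup.eq.1 he
  rw [show φ = χ * (χ⁻¹ * φ) by group]
  exact D.preserves_mul hχ (D.preserves_inn h1)

end ClassData

lemma six_gen : ∀ (i : Fin 4) (a b : Equiv.Perm (Fin 4)), a i = i → b i = i → a ≠ 1 → b ≠ 1 →
    a ≠ b → a * a = 1 → b * b = 1 → ∀ g : Equiv.Perm (Fin 4), g i = i →
    g = 1 ∨ g = a ∨ g = b ∨ g = a * b ∨ g = b * a ∨ g = a * b * a := by
  decide +kernel

/-- Two braided involutions in a copy of `Sym(4)` generate a point stabiliser. -/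
lemma exists_fix {K : Type*} [Group K] (ψ : K ≃* Equiv.Perm (Fin 4)) {α β : K} (hα1 : α ≠ 1)
    (hβ1 : β ≠ 1) (hαβ : α ≠ β) (hα2 : α * α = 1) (hβ2 : β * β = 1)
    (hbr : α * β * α = β * α * β) :
    ∃ i : Fin 4, ψ α i = i ∧ ψ β i = i ∧ ∀ x, ψ x i = i → x ∈ Subgroup.closure {α, β} := by
  have ha : ψ α ≠ 1 := fun h => hα1 ((EmbeddingLike.map_eq_one_iff (f := ψ)).mp h)
  have hb : ψ β ≠ 1 := fun h => hβ1 ((EmbeddingLike.map_eq_one_iff (f := ψ)).mp h)
  have ha2 : ψ α * ψ α = 1 := by rw [← map_mul, hα2, map_one]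
  have hb2 : ψ β * ψ β = 1 := by rw [← map_mul, hβ2, map_one]
  have h3 : α * β * (α * β) * (α * β) = 1 := by
    calc α * β * (α * β) * (α * β) = (α * β * α) * (β * α * β) := by group
      _ = (α * β * α) * (α * β * α) := by rw [hbr]
      _ = α * (β * (α * α) * β) * α := by group
      _ = 1 := by rw [hα2, mul_one, hβ2, mul_one, hα2]
  obtain ⟨i, hi, hj⟩ := CfsgLib.TT.OrthEightThree.fix_common (ψ (α * β)) (ψ α)
    (by rw [← map_mul, ← map_mul, h3, map_one])
    (fun h => hαβ ((eq_inv_of_mul_eq_one_left ((EmbeddingLike.map_eq_one_iff (f := ψ)).mp h)).trans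
      (inv_eq_of_mul_eq_one_left hβ2)))
    ha2 ha (by
      simp only [← map_mul]
      congr 1
      calc α * (α * β) * α = (α * α) * (β * α) := by group
        _ = β * α := by rw [hα2, one_mul]
        _ = β * α * (β * β) := by rw [hβ2, mul_one]
        _ = (β * α * β) * β := by group
        _ = α * β * α * β := by rw [hbr]
        _ = α * β * (α * β) := by group)
  have hbi : ψ β i = i := by
    have : ψ β = ψ α * ψ (α * β) := by rw [← map_mul, ← mul_assoc, hα2, one_mul]
    rw [this, Equiv.Perm.mul_apply, hi, hj]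
  refine ⟨i, hj, hbi, fun x hx => ?_⟩
  have hma : α ∈ Subgroup.closure {α, β} := Subgroup.subset_closure (Or.inl rfl)
  have hmb : β ∈ Subgroup.closure {α, β} := Subgroup.subset_closure (Or.inr rfl)
  rcases six_gen i _ _ hj hbi ha hb (fun h => hαβ (ψ.injective h)) ha2 hb2 _ hx with
    e | e | e | e | e | e
  · rw [(EmbeddingLike.map_eq_one_iff (f := ψ)).mp e]; exact one_mem _
  · rw [ψ.injective e]; exact hma
  · rw [ψ.injective e]; exact hmb
  · rw [← map_mul] at e; rw [ψ.injective e]; exact mul_mem hma hmb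
  · rw [← map_mul] at e; rw [ψ.injective e]; exact mul_mem hmb hma
  · rw [← map_mul, ← map_mul] at e; rw [ψ.injective e]; exact mul_mem (mul_mem hma hmb) hma

open CfsgLib.TT.OrthEightThree (actHom outHom)

namespace ClassData

variable (D : ClassData H)

/-- An identification with the simple group under which the extension is generated by the two automorphisms. -/
theorem exists_normalised (ψ : Cfsg.Out H ≃* Equiv.Perm (Fin 4)) (hH : Subgroup.center H = ⊥)
    (hα1 : (QuotientGroup.mk D.f2 : Cfsg.Out H) ≠ 1) (hβ1 : (QuotientGroup.mk D.f3 : Cfsg.Out H) ≠ 1)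
    (hαβ : (QuotientGroup.mk D.f2 : Cfsg.Out H) ≠ QuotientGroup.mk D.f3)
    (hα2 : (QuotientGroup.mk D.f2 : Cfsg.Out H) * QuotientGroup.mk D.f2 = 1)
    (hβ2 : (QuotientGroup.mk D.f3 : Cfsg.Out H) * QuotientGroup.mk D.f3 = 1)
    (hbr : (QuotientGroup.mk D.f2 : Cfsg.Out H) * QuotientGroup.mk D.f3 * QuotientGroup.mk D.f2 =
      QuotientGroup.mk D.f3 * QuotientGroup.mk D.f2 * QuotientGroup.mk D.f3)
    {G : Type v} [Group G] (L : Subgroup G) [L.Normal]
    (e : ↥L ≃* H) (hC : Subgroup.centralizer (L : Set G) ≤ L)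
    (q : G ⧸ L ≃* Equiv.Perm (Fin 3)) :
    ∃ e' : ↥L ≃* H, (∀ g, D.Preserves (actHom L e' g)) ∧
      (∃ g, actHom L e' g = D.f2) ∧ ∃ g, actHom L e' g = D.f3 := by
  have k := CfsgLib.TT.OrthEightThree.ker_outHom L e hH hC
  let f : Equiv.Perm (Fin 3) ≃* ↥(outHom L e).range :=
    q.symm.trans ((QuotientGroup.quotientMulEquivOfEq k.symm).trans
      (QuotientGroup.quotientKerEquivRange (outHom L e)))
  obtain ⟨j, hj⟩ :=
    CfsgLib.TT.OrthEightThree.exists_eq_stabilizer (f.trans (ψ.subgroupMap (outHom L e).range))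
  obtain ⟨i, hai, hbi, hgen⟩ := exists_fix ψ hα1 hβ1 hαβ hα2 hβ2 hbr
  obtain ⟨o, ho⟩ := QuotientGroup.mk_surjective (ψ.symm (Equiv.swap i j))
  have hact : ∀ g, actHom L (e.trans o) g = o * actHom L e g * o⁻¹ := fun g => by
    ext x
    rfl
  have hcls : ∀ g, ψ (QuotientGroup.mk (actHom L (e.trans o) g)) =
      Equiv.swap i j * ψ (outHom L e g) * Equiv.swap i j := fun g => by
    rw [hact, QuotientGroup.mk_mul, QuotientGroup.mk_mul, QuotientGroup.mk_inv, map_mul, map_mul,
      map_inv, ho, ψ.apply_symm_apply, Equiv.swap_inv]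
    rfl
  refine ⟨e.trans o, fun g => D.preserves_of_mem hα2 hβ2 (hgen _ ?_), ?_⟩
  · rw [hcls]
    have hm : ψ (outHom L e g) ∈ MulAction.stabilizer (Equiv.Perm (Fin 4)) j := by
      rw [← hj]
      exact Subgroup.mem_map_of_mem _ ⟨g, rfl⟩
    have hm' : ψ (outHom L e g) j = j := hm
    simp [Equiv.Perm.mul_apply, hm']
  have lift : ∀ φ : MulAut H, ψ (QuotientGroup.mk φ) i = i →
      ∃ g, actHom L (e.trans o) g = φ := by
    intro φ hφ
    have hm : Equiv.swap i j * ψ (QuotientGroup.mk φ) * Equiv.swap i j ∈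
        MulAction.stabilizer (Equiv.Perm (Fin 4)) j := by
      show (Equiv.swap i j * ψ (QuotientGroup.mk φ) * Equiv.swap i j) j = j
      simp [Equiv.Perm.mul_apply, hφ]
    rw [← hj] at hm
    obtain ⟨z, ⟨g, rfl⟩, hg⟩ := hm
    have hg' : ψ (outHom L e g) =
        Equiv.swap i j * ψ (QuotientGroup.mk φ) * Equiv.swap i j := hg
    have hq : (QuotientGroup.mk' (Cfsg.Inn H)) φ ∈ (outHom L (e.trans o)).range := by
      refine ⟨g, ψ.injective ?_⟩
      show ψ (QuotientGroup.mk (actHom L (e.trans o) g)) = _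
      rw [hcls, hg']
      simp [mul_assoc]
    have hr : φ ∈ (actHom L (e.trans o)).range := by
      rw [CfsgLib.TT.OrthEightThree.range_actHom]
      exact hq
    exact hr
  exact ⟨lift _ hai, lift _ hbi⟩

/-- The seven orbits of a normalised extension. -/
theorem orbits {G : Type v} [Group G] (L : Subgroup G) [L.Normal] (e : ↥L ≃* H)
    (hP : ∀ g, D.Preserves (actHom L e g)) {g2 g3 : G} (hg2 : actHom L e g2 = D.f2)
    (hg3 : actHom L e g3 = D.f3) :
    ∃ Y : Fin 7 → Subgroup G, (∀ i, Y i ≤ L ∧ Nat.card (Y i) = 3) ∧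
      (∀ i j, (∃ g : G, (Y i).map (MulAut.conj g).toMonoidHom = Y j) → i = j) ∧
      ∀ X : Subgroup G, X ≤ L → Nat.card X = 3 →
        ∃ i, ∃ g : G, X.map (MulAut.conj g).toMonoidHom = Y i := by
  set emb : Subgroup H → Subgroup G :=
    fun W => (W.map e.symm.toMonoidHom).map L.subtype with hemb
  have hinj : Function.Injective emb := (Subgroup.map_injective L.subtype_injective).comp
    (Subgroup.map_injective e.symm.injective)
  have hmap : ∀ (g : G) (W : Subgroup H), (emb W).map (MulAut.conj g).toMonoidHom =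
      emb (W.map (actHom L e g).toMonoidHom) := by
    intro g W
    simp only [hemb, Subgroup.map_map]
    congr 1
    ext x
    simp [CfsgLib.TT.OrthEightThree.actHom_apply]
  have hcard : ∀ W, Nat.card (emb W) = Nat.card W := fun W => by
    rw [hemb, Subgroup.card_map_of_injective L.subtype_injective,
      Subgroup.card_map_of_injective e.symm.injective]
  -- the relation induced by the group
  have trans : ∀ {A B C : Subgroup H}, (∃ g : G, A.map (actHom L e g).toMonoidHom = B) →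
      (∃ g : G, B.map (actHom L e g).toMonoidHom = C) →
      ∃ g : G, A.map (actHom L e g).toMonoidHom = C := by
    rintro A B C ⟨g, rfl⟩ ⟨g', rfl⟩
    exact ⟨g' * g, by rw [map_mul, map_aut_mul]⟩
  have ofRel : ∀ {A B : Subgroup H}, Rel A B → ∃ g : G, A.map (actHom L e g).toMonoidHom = B := by
    rintro A B ⟨y, rfl⟩
    exact ⟨(e.symm y : G), by rw [CfsgLib.TT.OrthEightThree.actHom_coe, e.apply_symm_apply]⟩
  have hreach2 := fun k => trans ⟨g2, by rw [hg2]⟩ (ofRel (D.rel_two k))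
  have hreach3 := fun k => trans ⟨g3, by rw [hg3]⟩ (ofRel (D.rel_three k))
  refine ⟨fun i => emb (D.Z (orbRep i)),
    fun i => ⟨Subgroup.map_subtype_le _, (hcard _).trans (D.card_Z _)⟩, fun i j => ?_,
    fun X hX hX3 => ?_⟩
  · rintro ⟨g, hg⟩
    rw [hmap] at hg
    have h1 := hP g (orbRep i) (orbRep j) ⟨1, by rw [map_one, map_aut_one, hinj hg]⟩
    rwa [lab_orbRep, lab_orbRep] at h1
  · obtain ⟨W, hW⟩ : ∃ W, emb W = X := by
      refine ⟨(X.subgroupOf L).map e.toMonoidHom, ?_⟩
      show ((X.subgroupOf L).map e.toMonoidHom |>.map e.symm.toMonoidHom).map L.subtype = X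
      rw [Subgroup.map_map, Subgroup.map_map,
        show (L.subtype.comp e.symm.toMonoidHom).comp e.toMonoidHom = L.subtype by ext x; simp,
        Subgroup.subgroupOf_map_subtype, inf_eq_left.mpr hX]
    obtain ⟨k, hk⟩ := D.exists_rel (X := W) (by rw [← hcard, hW, hX3])
    have h2 : ∃ g : G, W.map (actHom L e g).toMonoidHom = D.Z (orbRep (lab k)) := by
      refine trans (ofRel hk) ?_
      rcases lab_word k with h | h | h | h
      · rw [← h]; exact ⟨1, by rw [map_one, map_aut_one]⟩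
      · rw [← h]; exact hreach2 k
      · rw [← h]; exact hreach3 k
      · rw [← h]; exact trans (hreach3 k) (hreach2 _)
    obtain ⟨g, hg⟩ := h2
    exact ⟨lab k, g, by rw [← hW, hmap, hg]⟩

end ClassData

end CfsgLib.O83
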