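import Cfsg.Agent.Lib.Classes.OmegaEightThree.Companions
import Cfsg.Agent.Lib.Classes.OmegaEightThree.Orbits

/-!
The thirteen classes of subgroups of order three of `PΩ⁺₈(3)`.
-/

set_option autoImplicit false
set_option linter.unusedSimpArgs false
set_option linter.unusedVariables false

namespace CfsgLib.O83

open CfsgLib.OrthGen

/-- The centre of the commutator subgroup has exponent two. -/
lemma center_mul_self {z : ↥Om8} (hz : z ∈ Subgroup.center ↥Om8) : z * z = 1 := by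
  obtain ⟨c, hc, h⟩ := (CfsgLib.Triality.base F3).scalar_of_center (s := z) hz
  have h' : ∀ u, lin (z : G8) u = c • u := h
  refine Subtype.ext (lin_ext fun u => ?_)
  rw [Subgroup.coe_mul, Subgroup.coe_one, lin_mul, h', h', smul_smul, hc, one_smul, lin_one]

lemma exists_lift {x : H8} (hx : x ^ 3 = 1) : ∃ u : ↥Om8, u ^ 3 = 1 ∧ pr u = x := by
  obtain ⟨y, rfl⟩ := QuotientGroup.mk'_surjective (Subgroup.center ↥Om8) x
  have hy : y ^ 3 ∈ Subgroup.center ↥Om8 :=
    (QuotientGroup.eq_one_iff (y ^ 3)).mp hx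
  refine ⟨y ^ 4, ?_, ?_⟩
  · calc (y ^ 4) ^ 3 = (y ^ 3 * y ^ 3) * (y ^ 3 * y ^ 3) := by
          rw [← pow_add, ← pow_add, ← pow_mul]
      _ = 1 := by rw [center_mul_self hy, one_mul]
  · show pr (y ^ 4) = pr y
    have hx' : pr y ^ 3 = 1 := hx
    rw [map_pow, pow_succ, hx', one_mul]

lemma lift_unique {u v : ↥Om8} (hu : u ^ 3 = 1) (hv : v ^ 3 = 1) (h : pr u = pr v) : u = v := by
  have hc : u⁻¹ * v ∈ Subgroup.center ↥Om8 := QuotientGroup.eq.mp h
  obtain ⟨c, rfl⟩ : ∃ c, v = u * c := ⟨u⁻¹ * v, (mul_inv_cancel_left u v).symm⟩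
  rw [inv_mul_cancel_left] at hc
  have hcomm : Commute u c := Subgroup.mem_center_iff.mp hc u
  rw [hcomm.mul_pow, hu, one_mul, pow_three, center_mul_self hc, mul_one] at hv
  rw [hv, mul_one]

lemma stdC_ne : ∀ j : Fin 8, ∃ i : I8, stdC j (Pi.single i 1) ≠ 0 := by
  decide +kernel

lemma reps_ne_one (k : Fin 13) : reps k ≠ 1 := by
  intro h
  rw [reps, conj_eq_one_iff] at h
  obtain ⟨i, hi⟩ := stdC_ne (sigOf k)
  apply hi
  rw [← nop_zStd, (nop_eq_zero_iff _).mpr h]

lemma coe_repOm (k : Fin 13) : ((repOm k : ↥Om8) : G8) = reps k := rfl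

lemma repOm_pow_three (k : Fin 13) : repOm k ^ 3 = 1 := Subtype.ext (reps_pow_three k)

lemma pr_repOm_ne_one (k : Fin 13) : pr (repOm k) ≠ 1 := fun h =>
  reps_ne_one k (congrArg Subtype.val
    (lift_unique (repOm_pow_three k) (one_pow 3) (h.trans (map_one pr).symm)))

lemma orderOf_pr_repOm (k : Fin 13) : orderOf (pr (repOm k)) = 3 := by
  haveI : Fact (Nat.Prime 3) := ⟨Nat.prime_three⟩
  exact orderOf_eq_prime (by rw [← map_pow, repOm_pow_three, map_one]) (pr_repOm_ne_one k)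

/-- The thirteen subgroups. -/
noncomputable def Z (k : Fin 13) : Subgroup H8 := Subgroup.zpowers (pr (repOm k))

lemma card_Z (k : Fin 13) : Nat.card (Z k) = 3 := by
  rw [Z, Nat.card_zpowers, orderOf_pr_repOm]

/-- The first triality automorphism. -/
noncomputable abbrev f2 : MulAut H8 := CfsgLib.Triality.phi2 (F := F3)

/-- The second triality automorphism. -/
noncomputable abbrev f3 : MulAut H8 := CfsgLib.Triality.phi3 (F := F3)

lemma rel_two (k : Fin 13) : Rel ((Z k).map f2.toMonoidHom) (Z (perm2 k)) := by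
  refine ⟨pr (cTwo k), ?_⟩
  rw [Z, MonoidHom.map_zpowers, MonoidHom.map_zpowers, Z]
  refine congrArg Subgroup.zpowers ?_
  show pr (cTwo k) * CfsgLib.Triality.phi2 (pr (repOm k)) * (pr (cTwo k))⁻¹ = _
  rw [phi2_rep, ← map_inv, ← map_mul, ← map_mul, compTwo]
  refine congrArg pr ?_
  rw [mul_assoc (cTwo k)⁻¹, mul_inv_cancel_left, mul_inv_cancel_right]

lemma rel_three (k : Fin 13) : Rel ((Z k).map f3.toMonoidHom) (Z (perm3 k)) := by
  refine ⟨pr (cThree k), ?_⟩
  rw [Z, MonoidHom.map_zpowers, MonoidHom.map_zpowers, Z]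
  refine congrArg Subgroup.zpowers ?_
  show pr (cThree k) * CfsgLib.Triality.phi3 (pr (repOm k)) * (pr (cThree k))⁻¹ = _
  rw [phi3_rep, ← map_inv, ← map_mul, ← map_mul, compThree]
  refine congrArg pr ?_
  rw [mul_assoc (cThree k)⁻¹, mul_inv_cancel_left, mul_inv_cancel_right]

lemma sigOf_eq_of_rel {i j : Fin 13} (h : Rel (Z i) (Z j)) : sigOf i = sigOf j := by
  obtain ⟨g, hg⟩ := h
  obtain ⟨t, rfl⟩ := QuotientGroup.mk'_surjective (Subgroup.center ↥Om8) g
  rw [Z, MonoidHom.map_zpowers] at hg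
  have hmem : (MulAut.conj (pr t)).toMonoidHom (pr (repOm i)) ∈ Z j :=
    hg.le (Subgroup.mem_zpowers _)
  obtain ⟨m, hm⟩ := Subgroup.mem_zpowers_iff.mp hmem
  have hm' : pr (repOm j) ^ (m % 3) = pr (t * repOm i * t⁻¹) := by
    have h1 := zpow_mod_orderOf (pr (repOm j)) m
    rw [orderOf_pr_repOm] at h1
    rw [map_mul, map_mul, map_inv]
    exact h1.trans hm
  have hcu : (t * repOm i * t⁻¹) ^ 3 = 1 := by
    rw [conj_pow, repOm_pow_three, mul_one, mul_inv_cancel]
  have hInv : Inv4 (reps i) (reps j) := by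
    have h3 : m % 3 = 0 ∨ m % 3 = 1 ∨ m % 3 = 2 := by omega
    rcases h3 with h3 | h3 | h3 <;> rw [h3] at hm'
    · rw [zpow_zero, ← map_one pr] at hm'
      have he := lift_unique (one_pow 3) hcu hm'
      rw [eq_comm, conj_eq_one_iff] at he
      exact absurd (congrArg Subtype.val he) (reps_ne_one i)
    · rw [zpow_one] at hm'
      have he : reps j = (t : G8) * reps i * (t : G8)⁻¹ :=
        congrArg Subtype.val (lift_unique (repOm_pow_three j) hcu hm')
      rw [he]
      exact inv4_conj _ _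
    · rw [zpow_two, ← map_mul] at hm'
      have hsq : (repOm j * repOm j) ^ 3 = 1 := by
        rw [(Commute.refl _).mul_pow, repOm_pow_three, one_mul]
      have heq := congrArg Subtype.val (lift_unique hsq hcu hm')
      simp only [Subgroup.coe_mul, Subgroup.coe_inv, coe_repOm] at heq
      have he : reps j * reps j = (t : G8) * reps i * (t : G8)⁻¹ := heq
      have h1 : Inv4 (reps i) (reps j * reps j) := by rw [he]; exact inv4_conj _ _
      exact h1.trans (inv4_sq (reps_pow_three j)).symm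
  exact inv4_injective (((inv4_conj _ _ : Inv4 (zStd (sigOf i)) (reps i)).trans hInv).trans
    (inv4_conj _ _ : Inv4 (zStd (sigOf j)) (reps j)).symm)

lemma sig_separates : ∀ i j : Fin 13, sigOf i = sigOf j → sigOf (perm2 i) = sigOf (perm2 j) →
    sigOf (perm3 i) = sigOf (perm3 j) → i = j := by
  decide +kernel

theorem eq_of_rel {i j : Fin 13} (h : Rel (Z i) (Z j)) : i = j :=
  sig_separates i j (sigOf_eq_of_rel h)
    (sigOf_eq_of_rel (((rel_two i).symm.trans (h.map f2)).trans (rel_two j)))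
    (sigOf_eq_of_rel (((rel_three i).symm.trans (h.map f3)).trans (rel_three j)))

lemma exists_sign : ∀ (d : F3) (e : ℤˣ), d ≠ 0 →
    ∃ s : Fin 4, (![1, -1, -1, 1] : Fin 4 → F3) s = d ∧ (![1, 1, -1, -1] : Fin 4 → ℤˣ) s = e := by
  decide +kernel

theorem exists_rel {X : Subgroup H8} (hX : Nat.card X = 3) : ∃ k, Rel X (Z k) := by
  haveI : Finite X := Nat.finite_of_card_ne_zero (by omega)
  have hne : X ≠ ⊥ := fun e => by rw [e, Subgroup.card_bot] at hX; omega
  obtain ⟨x, hxX, hx1⟩ := X.bot_or_exists_ne_one.resolve_left hne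
  have hxz : X = Subgroup.zpowers x := by
    refine (Subgroup.eq_of_le_of_card_ge (by rw [Subgroup.zpowers_le]; exact hxX) ?_).symm
    rw [hX, Nat.card_zpowers]
    have hd := Subgroup.orderOf_dvd_natCard X hxX
    rw [hX] at hd
    rcases (Nat.dvd_prime Nat.prime_three).mp hd with h | h
    · exact absurd (orderOf_eq_one_iff.mp h) hx1
    · rw [h]
  have hx3 : x ^ 3 = 1 := by
    have := Subgroup.orderOf_dvd_natCard X hxX
    rw [hX] at this
    exact orderOf_dvd_iff_pow_eq_one.mp this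
  obtain ⟨u, hu, rfl⟩ := exists_lift hx3
  have hu1 : (u : G8) ≠ 1 := fun e => hx1 (by rw [show u = 1 from Subtype.ext e, map_one])
  obtain ⟨i, g₀, hg₀⟩ := exists_conj_std (x := (u : G8))
    (by rw [← SubmonoidClass.coe_pow, hu]; rfl) hu1
  have hd0 : CfsgLib.Classes.detHom Q8 g₀ ≠ 0 := fun e => by
    have := map_mul (CfsgLib.Classes.detHom Q8) g₀ g₀⁻¹
    rw [mul_inv_cancel, map_one, e, zero_mul] at this
    exact one_ne_zero this
  obtain ⟨s, hs₁, hs₂⟩ :=
    exists_sign (CfsgLib.Classes.detHom Q8 g₀) (spinSign Q8 1 g₀) hd0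
  set k := stabRep i s with hk
  set R := prodR (repVecs k) (repVecs_ne k) with hR
  set H := prodR (stabVecs i s) (stabVecs_ne i s) with hH
  have hmem : R * H * g₀ ∈ Om8 := by
    refine (mem_Om _).mpr ⟨?_, ?_⟩
    · rw [map_mul, map_mul, hR, hH, det_prodR, det_prodR, ← pow_add, (stab_signs i s).1, hs₁]
      rcases unit_cases hd0 with e | e <;> rw [e] <;> decide
    · rw [map_mul, map_mul, hR, hH, spin_prodR, spin_prodR, (stab_signs i s).2, hs₂]
      exact Int.units_mul_self _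
  refine ⟨k, pr ⟨R * H * g₀, hmem⟩, ?_⟩
  rw [hxz, MonoidHom.map_zpowers, Z]
  refine congrArg Subgroup.zpowers ?_
  show pr ⟨R * H * g₀, hmem⟩ * pr u * (pr ⟨R * H * g₀, hmem⟩)⁻¹ = pr (repOm k)
  rw [← map_inv, ← map_mul, ← map_mul]
  refine congrArg pr ?_
  apply Subtype.ext
  show R * H * g₀ * (u : G8) * (R * H * g₀)⁻¹ = reps k
  rw [reps, ← hR, hk, sigOf_stabRep]
  calc R * H * g₀ * (u : G8) * (R * H * g₀)⁻¹ = R * (H * (g₀ * u * g₀⁻¹)) * H⁻¹ * R⁻¹ := by group
    _ = R * zStd i * R⁻¹ := by rw [hg₀, hH, stab_commutes, mul_assoc R, mul_inv_cancel_right]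

/-- The data of the thirteen classes. -/
noncomputable def classData : ClassData H8 where
  Z := Z
  card_Z := card_Z
  eq_of_rel := eq_of_rel
  exists_rel := exists_rel
  f2 := f2
  f3 := f3
  rel_two := rel_two
  rel_three := rel_three

theorem thirteen_classes :
    ∃ Y : Fin 13 → Subgroup H8, (∀ i, Nat.card (Y i) = 3) ∧
      (∀ i j, (∃ g : H8, (Y i).map (MulAut.conj g).toMonoidHom = Y j) → i = j) ∧
      ∀ X : Subgroup H8, Nat.card X = 3 → ∃ i, ∃ g : H8, X.map (MulAut.conj g).toMonoidHom = Y i :=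
  ⟨Z, card_Z, fun _ _ h => eq_of_rel h, fun _ h => exists_rel h⟩

theorem seven_orbits {G : Type*} [Group G] (L : Subgroup G) [L.Normal]
    (e₀ : ↥L ≃* H8) (hC : Subgroup.centralizer (L : Set G) ≤ L)
    (q : G ⧸ L ≃* Equiv.Perm (Fin 3)) :
    ∃ Y : Fin 7 → Subgroup G, (∀ i, Y i ≤ L ∧ Nat.card (Y i) = 3) ∧
      (∀ i j, (∃ g : G, (Y i).map (MulAut.conj g).toMonoidHom = Y j) → i = j) ∧
      ∀ X : Subgroup G, X ≤ L → Nat.card X = 3 →
        ∃ i, ∃ g : G, X.map (MulAut.conj g).toMonoidHom = Y i := by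
  obtain ⟨ψ⟩ := CfsgLib.TT.OrthEightThree.out_equiv
  obtain ⟨e, hP, ⟨g2, hg2⟩, ⟨g3, hg3⟩⟩ := classData.exists_normalised ψ
    CfsgLib.TT.OrthEightThree.center_eq_bot
    (fun h => CfsgLib.Triality.phi2_not_mem (F := F3)
      (CfsgLib.Classes.TrialityOut.mem_gamma_of_mk_eq (one_mem _) h))
    (fun h => CfsgLib.Triality.phi3_not_mem (F := F3)
      (CfsgLib.Classes.TrialityOut.mem_gamma_of_mk_eq (one_mem _) h))
    (fun h => CfsgLib.Triality.phi2_inv_phi3_not_mem (F := F3)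
      (CfsgLib.Classes.TrialityOut.inn_le_gamma (QuotientGroup.eq.1 h)))
    CfsgLib.Classes.TrialityOut.aOut_mul_self CfsgLib.Classes.TrialityOut.bOut_mul_self
    CfsgLib.Classes.TrialityOut.braidOut L e₀ hC q
  exact classData.orbits L e hP hg2 hg3

end CfsgLib.O83
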