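import Cfsg.Agent.Lib.Classes.OmegaEightThree.Data
import Cfsg.Agent.Lib.Classes.OmegaOdd

/-!
Reflections and the standard elements in coordinates, and the representatives of the thirteen classes.
-/

set_option autoImplicit false
set_option linter.unusedSimpArgs false
set_option linter.unusedVariables false

namespace CfsgLib.O83

open CfsgLib.OrthGen

/-- The polar form in coordinates. -/
def bfc (u v : V8) : F3 := (u (.inl 0) * v (.inr 0) + u (.inr 0) * v (.inl 0))
    + (u (.inl 1) * v (.inr 1) + u (.inr 1) * v (.inl 1))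
    + (u (.inl 2) * v (.inr 2) + u (.inr 2) * v (.inl 2))
    + (u (.inl 3) * v (.inr 3) + u (.inr 3) * v (.inl 3))

lemma bfc_eq (u v : V8) : bfc u v = Bf u v := (Bf_eq u v).symm

/-- The operator of a block of size three in coordinates. -/
def c3 (a : F3) (v w z u : V8) : V8 := (a * bfc u z) • w + (-a * (bfc u w + bfc u z)) • z

lemma c3_eq (a : F3) (v w z u : V8) : c3 a v w z u = n3 a v w z u := by
  simp only [c3, n3_apply, bfc_eq]

/-- The operator of a pair of blocks of size two in coordinates. -/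
def c4 (f h g k u : V8) : V8 := (-bfc u k) • h + (bfc u h) • k

lemma c4_eq (f h g k u : V8) : c4 f h g k u = n4 f h g k u := by
  simp only [c4, n4_apply, bfc_eq]

/-- A reflection in coordinates. -/
def reflC (v u : V8) : V8 := u - ((-bfc v v) * bfc v u) • v

/-- A product of reflections in coordinates. -/
def prodC : List V8 → V8 → V8
  | [], u => u
  | v :: vs, u => reflC v (prodC vs u)

/-- A product of reflections. -/
noncomputable def prodR (vs : List V8) (h : ∀ v ∈ vs, Q8 v ≠ 0) : G8 :=
  (vs.pmap (fun _ hv => refl Q8 hv) h).prod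

lemma lin_prodR (vs : List V8) (h : ∀ v ∈ vs, Q8 v ≠ 0) (u : V8) :
    lin (prodR vs h) u = prodC vs u := by
  induction vs with
  | nil => simp [prodR, prodC, lin_one]
  | cons v vs ih =>
    have hv : Q8 v ≠ 0 := h v List.mem_cons_self
    have hinv : (Q8 v)⁻¹ = Q8 v := inv_eq_of_mul_eq_one_left (unit_sq hv)
    rw [prodR, List.pmap_cons, List.prod_cons, lin_mul, prodC, ← ih fun w hw => h w
      (List.mem_cons_of_mem _ hw), reflC, bfc_eq, bfc_eq, ← Q8_eq]
    simp only [lin_apply, act_refl, hinv]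
    rw [Bf_polar]
    rfl

/-- An isometry in coordinates. -/
def linC (f : V8 → V8) (u : V8) : V8 := u + f u

lemma lin_eq_of_basis {x y : G8} (h : ∀ i : I8, lin x (Pi.single i 1) = lin y (Pi.single i 1)) :
    x = y := by
  have : lin x = lin y := (Pi.basisFun F3 I8).ext fun i => by simpa using h i
  exact lin_ext fun u => by rw [this]

/-- The coordinates of the standard elements. -/
def stdC : Fin 8 → V8 → V8 :=
  ![c4 sf sh sg sk, fun u => c4 sf sh sg sk u + c4 sv rh rg rk u, c3 1 sv sw sz, c3 (-1) sv mw mz,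
    fun u => c3 1 sv sw sz u + c4 sf sh sg sk u, fun u => c3 (-1) sv mw mz u + c4 sf sh sg sk u,
    fun u => c3 1 sv sw sz u + c3 1 sf tw tz u, fun u => c3 1 sv sw sz u + c3 (-1) sf uw uz u]

lemma lin_zStd (i : Fin 8) (u : V8) : lin (zStd i) u = linC (stdC i) u := by
  fin_cases i <;>
    simp [zStd, zA, zE, zP, zM, zCP, zCM, zDP, zDM, stdC, linC, lin_eltOf, c3_eq, c4_eq]

lemma nop_zStd (i : Fin 8) (u : V8) : nop (zStd i) u = stdC i u := by
  have h := lin_zStd i u
  rw [lin_eq, linC] at h
  exact add_left_cancel h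

lemma zStd_pow_three (i : Fin 8) : zStd i ^ 3 = 1 := by
  fin_cases i <;> simp [zStd, zA, zE, zP, zM, zCP, zCM, zDP, zDM, eltOf_pow_three]

lemma Q8_ne_zero_of {v : V8} (h : bfc v v ≠ 0) : Q8 v ≠ 0 := by
  rw [Q8_eq, ← bfc_eq]
  exact neg_ne_zero.mpr h

lemma det_prodR (vs : List V8) (h : ∀ v ∈ vs, Q8 v ≠ 0) :
    CfsgLib.Classes.detHom Q8 (prodR vs h) = (-1) ^ vs.length :=
  CfsgLib.Classes.detHom_prod_refl vs h

/-- The predicted spinor sign of a product of reflections. -/
def signC : List V8 → ℤˣ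
  | [] => 1
  | v :: vs => (if bfc v v = -1 then -1 else 1) * signC vs

lemma isSquare_F3 : ∀ a : F3, a ≠ 0 → (IsSquare a ↔ a = 1) := by
  intro a ha
  constructor
  · rintro ⟨r, rfl⟩
    revert ha
    revert r
    decide
  · rintro rfl
    exact IsSquare.one

lemma spin_prodR (vs : List V8) (h : ∀ v ∈ vs, Q8 v ≠ 0) :
    spinSign Q8 1 (prodR vs h) = signC vs := by
  induction vs with
  | nil => simp [prodR, signC]
  | cons v vs ih =>
    have hv : Q8 v ≠ 0 := h v List.mem_cons_self
    rw [prodR, List.pmap_cons, List.prod_cons, map_mul, signC]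
    congr 1
    · have hne : (1 : F3) / Q8 v ≠ 0 := div_ne_zero one_ne_zero hv
      split_ifs with hb
      · rw [spinSign_refl two_ne_zero8 one_ne_zero hv, Q8_eq, ← bfc_eq, hb]
        norm_num
      · rw [spinSign_refl' two_ne_zero8 one_ne_zero hv, isSquare_F3 _ hne, Q8_eq, ← bfc_eq]
        have hb0 : bfc v v ≠ 0 := fun e => hv (by rw [Q8_eq, ← bfc_eq, e, neg_zero])
        rcases unit_cases hb0 with e | e
        · rw [e, div_neg, div_one]; decide
        · exact absurd e hb
    · exact ih fun w hw => h w (List.mem_cons_of_mem _ hw)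

/-- The product of a reversed list inverts. -/
lemma prodR_reverse (vs : List V8) (h : ∀ v ∈ vs, Q8 v ≠ 0) (h' : ∀ v ∈ vs.reverse, Q8 v ≠ 0) :
    prodR vs.reverse h' = (prodR vs h)⁻¹ := by
  induction vs with
  | nil => simp [prodR]
  | cons v vs ih =>
    have hv : Q8 v ≠ 0 := h v List.mem_cons_self
    have hr : ∀ w ∈ vs, Q8 w ≠ 0 := fun w hw => h w (List.mem_cons_of_mem _ hw)
    have hr' : ∀ w ∈ vs.reverse, Q8 w ≠ 0 := fun w hw => hr w (List.mem_reverse.mp hw)
    simp only [prodR, List.reverse_cons, List.pmap_append, List.prod_append, List.pmap_cons,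
      List.pmap_nil, List.prod_cons, List.prod_nil, mul_one, mul_inv_rev]
    rw [inv_eq_of_mul_eq_one_left (refl_mul_self Q8 hv)]
    congr 1
    exact ih hr hr'

lemma repVecs_all : ∀ k, (repVecs k).all (fun v => decide (bfc v v ≠ 0)) = true := by
  decide +kernel

lemma repVecs_ne (k : Fin 13) : ∀ v ∈ repVecs k, Q8 v ≠ 0 := fun v hv =>
  Q8_ne_zero_of (of_decide_eq_true (List.all_eq_true.mp (repVecs_all k) v hv))

/-- The thirteen representatives. -/
noncomputable def reps (k : Fin 13) : G8 :=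
  prodR (repVecs k) (repVecs_ne k) * zStd (sigOf k) * (prodR (repVecs k) (repVecs_ne k))⁻¹

/-- The representatives in coordinates. -/
def repC (k : Fin 13) (u : V8) : V8 :=
  prodC (repVecs k) (linC (stdC (sigOf k)) (prodC (repVecs k).reverse u))

lemma lin_prodR_inv (vs : List V8) (h : ∀ v ∈ vs, Q8 v ≠ 0) (u : V8) :
    lin (prodR vs h)⁻¹ u = prodC vs.reverse u := by
  rw [← prodR_reverse vs h fun w hw => h w (List.mem_reverse.mp hw), lin_prodR]

lemma lin_reps (k : Fin 13) (u : V8) : lin (reps k) u = repC k u := by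
  rw [reps, lin_mul, lin_mul, lin_prodR, lin_zStd, lin_prodR_inv]
  rfl

lemma reps_pow_three (k : Fin 13) : reps k ^ 3 = 1 := by
  rw [reps, conj_pow, zStd_pow_three, mul_one, mul_inv_cancel]

lemma stabVecs_all : ∀ j s, (stabVecs j s).all (fun v => decide (bfc v v ≠ 0)) = true := by
  decide +kernel

lemma stabVecs_ne (j : Fin 8) (s : Fin 4) : ∀ v ∈ stabVecs j s, Q8 v ≠ 0 := fun v hv =>
  Q8_ne_zero_of (of_decide_eq_true (List.all_eq_true.mp (stabVecs_all j s) v hv))

lemma sigOf_stabRep : ∀ j s, sigOf (stabRep j s) = j := by decide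

lemma stab_signs : ∀ (j : Fin 8) (s : Fin 4),
    (-1 : F3) ^ ((repVecs (stabRep j s)).length + (stabVecs j s).length) =
      (![1, -1, -1, 1] : Fin 4 → F3) s ∧
    signC (repVecs (stabRep j s)) * signC (stabVecs j s) =
      (![1, 1, -1, -1] : Fin 4 → ℤˣ) s := by
  decide +kernel

lemma stab_commutes_aux : ∀ (j : Fin 8) (s : Fin 4) (i : I8),
    prodC (stabVecs j s) (linC (stdC j) (Pi.single i 1)) =
      linC (stdC j) (prodC (stabVecs j s) (Pi.single i 1)) := by
  decide +kernel

lemma stab_commutes (j : Fin 8) (s : Fin 4) :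
    prodR (stabVecs j s) (stabVecs_ne j s) * zStd j =
      zStd j * prodR (stabVecs j s) (stabVecs_ne j s) :=
  lin_eq_of_basis fun i => by
    rw [lin_mul, lin_mul, lin_zStd, lin_zStd, lin_prodR, lin_prodR]
    exact stab_commutes_aux j s i

end CfsgLib.O83
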