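import Cfsg.Agent.Lib.Classes.OmegaEightThree.Classify

/-!
Standard elements of order three of `O⁺₈(3)` and conjugation to them.
-/

set_option autoImplicit false
set_option linter.unusedSimpArgs false
set_option linter.unusedVariables false

namespace CfsgLib.O83

open CfsgLib.OrthGen

/-- A vector from its coordinates. -/
def vec (a₀ a₁ a₂ a₃ b₀ b₁ b₂ b₃ : F3) : V8 := Sum.elim ![a₀, a₁, a₂, a₃] ![b₀, b₁, b₂, b₃]

lemma Bf_eq (u v : V8) : Bf u v = (u (.inl 0) * v (.inr 0) + u (.inr 0) * v (.inl 0))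
    + (u (.inl 1) * v (.inr 1) + u (.inr 1) * v (.inl 1))
    + (u (.inl 2) * v (.inr 2) + u (.inr 2) * v (.inl 2))
    + (u (.inl 3) * v (.inr 3) + u (.inr 3) * v (.inl 3)) := by
  simp only [Bf_polar, QuadraticMap.polar, Q8, QuadraticMap.coe_copy, Cfsg.quadFormPlus,
    Fin.sum_univ_four, Pi.add_apply]
  ring

lemma Bf_vec (a₀ a₁ a₂ a₃ b₀ b₁ b₂ b₃ a₀' a₁' a₂' a₃' b₀' b₁' b₂' b₃' : F3) :
    Bf (vec a₀ a₁ a₂ a₃ b₀ b₁ b₂ b₃) (vec a₀' a₁' a₂' a₃' b₀' b₁' b₂' b₃') =
      (a₀ * b₀' + b₀ * a₀') + (a₁ * b₁' + b₁ * a₁') + (a₂ * b₂' + b₂ * a₂')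
        + (a₃ * b₃' + b₃ * a₃') := by
  rw [Bf_eq]
  rfl

/-- First vector of the first standard block. -/
def sv : V8 := vec 1 0 0 0 0 0 0 0
/-- Second vector of the first standard block of value one. -/
def sw : V8 := vec 0 1 0 0 (-1) 1 0 0
/-- Third vector of the first standard block of value one. -/
def sz : V8 := vec 0 0 0 0 1 0 0 0
/-- Second vector of the first standard block of value minus one. -/
def mw : V8 := vec 0 1 0 0 1 (-1) 0 0
/-- Third vector of the first standard block of value minus one. -/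
def mz : V8 := vec 0 0 0 0 (-1) 0 0 0
/-- Vectors of the standard pair of blocks of size two. -/
def sf : V8 := vec 0 0 1 0 0 0 0 0
/-- Image of `sf`. -/
def sh : V8 := vec 0 0 0 0 0 0 0 1
/-- Second vector of the standard pair. -/
def sg : V8 := vec 0 0 0 1 0 0 0 0
/-- Image of `sg`. -/
def sk : V8 := vec 0 0 0 0 0 0 (-1) 0
/-- Image of `sv` in the second pair of blocks of size two. -/
def rh : V8 := vec 0 0 0 0 0 1 0 0
/-- Second vector of the second pair. -/
def rg : V8 := vec 0 1 0 0 0 0 0 0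
/-- Image of `rg`. -/
def rk : V8 := vec 0 0 0 0 (-1) 0 0 0
/-- Second vector of the second standard block of value one. -/
def tw : V8 := vec 0 0 0 1 0 0 (-1) 1
/-- Third vector of the second standard block of value one. -/
def tz : V8 := vec 0 0 0 0 0 0 1 0
/-- Second vector of the second standard block of value minus one. -/
def uw : V8 := vec 0 0 0 1 0 0 1 (-1)
/-- Third vector of the second standard block of value minus one. -/
def uz : V8 := vec 0 0 0 0 0 0 (-1) 0

lemma b_pos : B3 1 sv sw sz := by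
  constructor <;> first | decide | (simp only [sv, sw, sz, Bf_vec]; decide)

lemma b_neg : B3 (-1) sv mw mz := by
  constructor <;> first | decide | (simp only [sv, mw, mz, Bf_vec]; decide)

lemma b_pos' : B3 1 sf tw tz := by
  constructor <;> first | decide | (simp only [sf, tw, tz, Bf_vec]; decide)

lemma b_neg' : B3 (-1) sf uw uz := by
  constructor <;> first | decide | (simp only [sf, uw, uz, Bf_vec]; decide)

lemma b_four : B4 sf sh sg sk := by
  constructor <;> (simp only [sf, sh, sg, sk, Bf_vec]; decide)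

lemma b_four' : B4 sv rh rg rk := by
  constructor <;> (simp only [sv, rh, rg, rk, Bf_vec]; decide)

lemma orth_four_four : ∀ i j, Bf (![sf, sh, sg, sk] i) (![sv, rh, rg, rk] j) = 0 := by
  intro i j
  fin_cases i <;> fin_cases j <;>
    (dsimp; simp only [sv, rh, rg, rk, sf, sh, sg, sk, Bf_vec]; decide)

lemma orth_four : ∀ i j, Bf (![sv, sw, sz] i) (![sf, sh, sg, sk] j) = 0 := by
  intro i j
  fin_cases i <;> fin_cases j <;>
    (dsimp; simp only [sv, sw, sz, sf, sh, sg, sk, Bf_vec]; decide)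

lemma orth_four_neg : ∀ i j, Bf (![sv, mw, mz] i) (![sf, sh, sg, sk] j) = 0 := by
  intro i j
  fin_cases i <;> fin_cases j <;>
    (dsimp; simp only [sv, mw, mz, sf, sh, sg, sk, Bf_vec]; decide)

lemma orth_pos : ∀ i j, Bf (![sv, sw, sz] i) (![sf, tw, tz] j) = 0 := by
  intro i j
  fin_cases i <;> fin_cases j <;>
    (dsimp; simp only [sv, sw, sz, sf, tw, tz, Bf_vec]; decide)

lemma orth_neg : ∀ i j, Bf (![sv, sw, sz] i) (![sf, uw, uz] j) = 0 := by
  intro i j
  fin_cases i <;> fin_cases j <;>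
    (dsimp; simp only [sv, sw, sz, sf, uw, uz, Bf_vec]; decide)

/-- Hypotheses making `1 + n` an isometry of order dividing three. -/
structure Unip (n : V8 →ₗ[F3] V8) : Prop where
  cube : ∀ u, n (n (n u)) = 0
  rel : ∀ u u', Bf (n u) u' + Bf u (n u') + Bf (n u) (n u') = 0

lemma unip_n3 {a : F3} {v w z : V8} (b : B3 a v w z) : Unip (n3 a v w z) :=
  ⟨n3_cube b, n3_rel b⟩

lemma unip_n4 {f h g k : V8} (b : B4 f h g k) : Unip (n4 f h g k) :=
  ⟨fun u => by rw [n4_cube b], n4_rel b⟩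

lemma unip_add {n n' : V8 →ₗ[F3] V8} (hn : Unip n) (hn' : Unip n') (h1 : ∀ u, n (n' u) = 0)
    (h2 : ∀ u, n' (n u) = 0) (ho : ∀ u u', Bf (n u) (n' u') = 0) : Unip (n + n') := by
  refine ⟨fun u => ?_, fun u u' => ?_⟩
  · simp only [LinearMap.add_apply, map_add, h1, h2, add_zero, zero_add, hn.cube, hn'.cube]
  · simp only [LinearMap.add_apply, map_add, ho, Bf_comm (n' u) (n u'), add_zero, zero_add]
    linear_combination hn.rel u u' + hn'.rel u u'

lemma one_add_cube {n : V8 →ₗ[F3] V8} (hn : Unip n) :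
    (LinearMap.id + n) ∘ₗ ((LinearMap.id + n) ∘ₗ (LinearMap.id + n)) = LinearMap.id := by
  have h : ∀ a : V8, a + a + a = 0 := fun a => funext fun i => by
    simp only [Pi.add_apply, Pi.zero_apply]
    linear_combination (a i) * three_eq_zero
  refine LinearMap.ext fun u => ?_
  simp only [LinearMap.comp_apply, LinearMap.add_apply, LinearMap.id_apply, map_add, hn.cube,
    add_zero]
  calc u + n u + (n u + n (n u)) + (n u + n (n u) + n (n u))
      = u + ((n u + n u + n u) + (n (n u) + n (n u) + n (n u))) := by abel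
    _ = u := by rw [h, h, add_zero, add_zero]

/-- The isometry `1 + n`. -/
noncomputable def eltOf (n : V8 →ₗ[F3] V8) (hn : Unip n) : G8 :=
  mkIso Q8 (LinearMap.toMatrix' (LinearMap.id + n))
    (LinearMap.toMatrix' ((LinearMap.id + n) ∘ₗ (LinearMap.id + n)))
    (by rw [← LinearMap.toMatrix'_comp, one_add_cube hn, LinearMap.toMatrix'_id])
    (by rw [← LinearMap.toMatrix'_comp, LinearMap.comp_assoc, one_add_cube hn,
      LinearMap.toMatrix'_id])
    (fun u => by
      rw [LinearMap.toMatrix'_mulVec, Q8_eq, Q8_eq]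
      simp only [LinearMap.add_apply, LinearMap.id_apply, map_add]
      linear_combination -hn.rel u u)

lemma lin_eltOf (n : V8 →ₗ[F3] V8) (hn : Unip n) (u : V8) : lin (eltOf n hn) u = u + n u := by
  rw [lin_apply, act, eltOf, coe_mkIso, LinearMap.toMatrix'_mulVec]
  rfl

lemma nop_eltOf (n : V8 →ₗ[F3] V8) (hn : Unip n) : nop (eltOf n hn) = n :=
  LinearMap.ext fun u => by
    have := lin_eq (eltOf n hn) u
    rw [lin_eltOf] at this
    exact (add_left_cancel this).symm

lemma eltOf_pow_three (n : V8 →ₗ[F3] V8) (hn : Unip n) : eltOf n hn ^ 3 = 1 :=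
  lin_ext fun u => by
    have h := LinearMap.congr_fun (one_add_cube hn) u
    simp only [LinearMap.comp_apply, LinearMap.add_apply, LinearMap.id_apply] at h
    rw [pow_three, lin_mul, lin_mul, lin_one, lin_eltOf, lin_eltOf, lin_eltOf]
    exact h

/-- The standard element of shape `2² 1⁴`. -/
noncomputable def zA : G8 := eltOf (n4 sf sh sg sk) (unip_n4 b_four)

/-- The standard element of shape `3 1⁵`, value one. -/
noncomputable def zP : G8 := eltOf (n3 1 sv sw sz) (unip_n3 b_pos)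

/-- The standard element of shape `3 1⁵`, value minus one. -/
noncomputable def zM : G8 := eltOf (n3 (-1) sv mw mz) (unip_n3 b_neg)

lemma unip_orth44 {f h g k f' h' g' k' : V8} (b : B4 f h g k) (b' : B4 f' h' g' k')
    (ho : ∀ i j, Bf (![f, h, g, k] i) (![f', h', g', k'] j) = 0) :
    Unip (n4 f h g k + n4 f' h' g' k') := by
  have o11 : Bf h h' = 0 := ho 1 1
  have o13 : Bf h k' = 0 := ho 1 3
  have o31 : Bf k h' = 0 := ho 3 1
  have o33 : Bf k k' = 0 := ho 3 3
  refine unip_add (unip_n4 b) (unip_n4 b') (fun u => ?_) (fun u => ?_) (fun u u' => ?_)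
  · simp only [n4_apply f' h', map_add, map_smul, n4_apply f h, LinearMap.add_apply,
      LinearMap.smul_apply, smul_eq_mul]
    simp [Bf_comm h' h, Bf_comm h' k, Bf_comm k' h, Bf_comm k' k, o11, o13, o31, o33]
  · simp only [n4_apply f h, map_add, map_smul, n4_apply f' h', LinearMap.add_apply,
      LinearMap.smul_apply, smul_eq_mul]
    simp [o11, o13, o31, o33]
  · simp only [n4_apply, map_add, map_smul, LinearMap.add_apply, LinearMap.smul_apply,
      o11, o13, o31, o33]
    simp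

lemma unip_orth34 {a : F3} {v w z f h g k : V8} (b : B3 a v w z) (b' : B4 f h g k)
    (ho : ∀ i j, Bf (![v, w, z] i) (![f, h, g, k] j) = 0) : Unip (n3 a v w z + n4 f h g k) := by
  have o11 : Bf w h = 0 := ho 1 1
  have o13 : Bf w k = 0 := ho 1 3
  have o21 : Bf z h = 0 := ho 2 1
  have o23 : Bf z k = 0 := ho 2 3
  refine unip_add (unip_n3 b) (unip_n4 b') (fun u => ?_) (fun u => ?_) (fun u u' => ?_)
  · simp only [n4_apply, map_add, map_smul, n3_apply, Bf_comm h z, Bf_comm h w, Bf_comm k z,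
      Bf_comm k w, o11, o13, o21, o23]
    simp
  · simp only [n3_apply, map_add, map_smul, n4_apply, o11, o13, o21, o23]
    simp
  · simp only [n3_apply, n4_apply, map_add, map_smul, LinearMap.add_apply, LinearMap.smul_apply,
      o11, o13, o21, o23]
    simp

lemma unip_orth33 {a a' : F3} {v w z v' w' z' : V8} (b : B3 a v w z) (b' : B3 a' v' w' z')
    (ho : ∀ i j, Bf (![v, w, z] i) (![v', w', z'] j) = 0) :
    Unip (n3 a v w z + n3 a' v' w' z') := by
  have o11 : Bf w w' = 0 := ho 1 1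
  have o12 : Bf w z' = 0 := ho 1 2
  have o21 : Bf z w' = 0 := ho 2 1
  have o22 : Bf z z' = 0 := ho 2 2
  refine unip_add (unip_n3 b) (unip_n3 b') (fun u => ?_) (fun u => ?_) (fun u u' => ?_)
  · simp only [n3_apply a' v', map_add, map_smul, n3_apply a v, LinearMap.add_apply,
      LinearMap.smul_apply, smul_eq_mul]
    simp [Bf_comm w' z, Bf_comm w' w, Bf_comm z' z, Bf_comm z' w, o11, o12, o21, o22]
  · simp only [n3_apply a v, map_add, map_smul, n3_apply a' v', LinearMap.add_apply,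
      LinearMap.smul_apply, smul_eq_mul]
    simp [o11, o12, o21, o22]
  · simp only [n3_apply, map_add, map_smul, LinearMap.add_apply, LinearMap.smul_apply,
      o11, o12, o21, o22]
    simp

/-- The standard element of shape `2⁴`. -/
noncomputable def zE : G8 :=
  eltOf (n4 sf sh sg sk + n4 sv rh rg rk) (unip_orth44 b_four b_four' orth_four_four)

/-- The standard element of shape `3 2² 1`, value one. -/
noncomputable def zCP : G8 :=
  eltOf (n3 1 sv sw sz + n4 sf sh sg sk) (unip_orth34 b_pos b_four orth_four)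

/-- The standard element of shape `3 2² 1`, value minus one. -/
noncomputable def zCM : G8 :=
  eltOf (n3 (-1) sv mw mz + n4 sf sh sg sk) (unip_orth34 b_neg b_four orth_four_neg)

/-- The standard element of shape `3² 1²`, values `1, 1`. -/
noncomputable def zDP : G8 :=
  eltOf (n3 1 sv sw sz + n3 1 sf tw tz) (unip_orth33 b_pos b_pos' orth_pos)

/-- The standard element of shape `3² 1²`, values `1, -1`. -/
noncomputable def zDM : G8 :=
  eltOf (n3 1 sv sw sz + n3 (-1) sf uw uz) (unip_orth33 b_pos b_neg' orth_neg)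

/-! ### Conjugation -/

lemma conj_of_equivariant {x z : G8} (g : G8)
    (h : ∀ u, lin g (nop x u) = nop z (lin g u)) : g * x * g⁻¹ = z := by
  refine lin_ext fun u => ?_
  rw [lin_mul, lin_mul, lin_eq x, map_add, h, ← lin_mul g g⁻¹, mul_inv_cancel, lin_one, ← lin_eq]

lemma lin_n3 (g : G8) (a : F3) (v w z u : V8) :
    lin g (n3 a v w z u) = n3 a (lin g v) (lin g w) (lin g z) (lin g u) := by
  simp only [n3_apply, map_add, map_smul, Bf_lin]

lemma lin_n4 (g : G8) (f h k j u : V8) :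
    lin g (n4 f h k j u) = n4 (lin g f) (lin g h) (lin g k) (lin g j) (lin g u) := by
  simp only [n4_apply, map_add, map_smul, Bf_lin]

lemma gram3_eq {a : F3} {v w z v' w' z' : V8} (b : B3 a v w z) (b' : B3 a v' w' z') :
    ∀ i j, Bf (![v', w', z'] i) (![v', w', z'] j) = Bf (![v, w, z] i) (![v, w, z] j) := by
  intro i j
  fin_cases i <;> fin_cases j <;> dsimp <;>
    simp only [b.vv, b.vw, b.ww, b.vz, b.wz, b.zz, b'.vv, b'.vw, b'.ww, b'.vz, b'.wz, b'.zz,
      Bf_comm w v, Bf_comm z v, Bf_comm z w, Bf_comm w' v', Bf_comm z' v', Bf_comm z' w']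

lemma gram4_eq {f h g k f' h' g' k' : V8} (b : B4 f h g k) (b' : B4 f' h' g' k') :
    ∀ i j, Bf (![f', h', g', k'] i) (![f', h', g', k'] j) =
      Bf (![f, h, g, k] i) (![f, h, g, k] j) := by
  intro i j
  fin_cases i <;> fin_cases j <;> dsimp <;>
    simp only [b.ff, b.fh, b.fg, b.fk, b.hh, b.hg, b.hk, b.gg, b.gk, b.kk,
      b'.ff, b'.fh, b'.fg, b'.fk, b'.hh, b'.hg, b'.hk, b'.gg, b'.gk, b'.kk,
      Bf_comm h f, Bf_comm g f, Bf_comm k f, Bf_comm g h, Bf_comm k h, Bf_comm k g,
      Bf_comm h' f', Bf_comm g' f', Bf_comm k' f', Bf_comm g' h', Bf_comm k' h', Bf_comm k' g']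

lemma gram_sum_eq {κ κ' : Type*} [Fintype κ] [Fintype κ'] {p q : κ → V8} {p' q' : κ' → V8}
    (h : ∀ i j, Bf (q i) (q j) = Bf (p i) (p j))
    (h' : ∀ i j, Bf (q' i) (q' j) = Bf (p' i) (p' j))
    (ho : ∀ i j, Bf (p i) (p' j) = 0) (hoq : ∀ i j, Bf (q i) (q' j) = 0) :
    ∀ i j, Bf (Sum.elim q q' i) (Sum.elim q q' j) = Bf (Sum.elim p p' i) (Sum.elim p p' j) := by
  rintro (i | i) (j | j)
  · exact h i j
  · simp only [Sum.elim_inl, Sum.elim_inr, ho, hoq]
  · simp only [Sum.elim_inl, Sum.elim_inr, Bf_comm (q' i), Bf_comm (p' i), ho, hoq]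
  · exact h' i j

lemma conj_n3 {x z : G8} {a : F3} {v w y v' w' y' : V8} (b : B3 a v w y) (hx : nop x = n3 a v w y)
    (b' : B3 a v' w' y') (hz : nop z = n3 a v' w' y') : ∃ g, g * x * g⁻¹ = z := by
  obtain ⟨g, hg⟩ := exists_isometry_of_gram (linearIndependent_of_gram _ (gram3 b))
    (linearIndependent_of_gram _ (gram3 b')) (gram3_eq b b')
  refine ⟨g, conj_of_equivariant g fun u => ?_⟩
  have e0 : lin g v = v' := hg 0
  have e1 : lin g w = w' := hg 1
  have e2 : lin g y = y' := hg 2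
  rw [hx, hz, lin_n3, e0, e1, e2]

lemma conj_n4 {x z : G8} {f h p k f' h' p' k' : V8} (b : B4 f h p k) (hx : nop x = n4 f h p k)
    (b' : B4 f' h' p' k') (hz : nop z = n4 f' h' p' k') : ∃ g, g * x * g⁻¹ = z := by
  obtain ⟨g, hg⟩ := exists_isometry_of_gram (linearIndependent_of_gram _ (gram4 b))
    (linearIndependent_of_gram _ (gram4 b')) (gram4_eq b b')
  refine ⟨g, conj_of_equivariant g fun u => ?_⟩
  have e0 : lin g f = f' := hg 0
  have e1 : lin g h = h' := hg 1
  have e2 : lin g p = p' := hg 2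
  have e3 : lin g k = k' := hg 3
  rw [hx, hz, lin_n4, e0, e1, e2, e3]

lemma conj_n34 {x z : G8} {a : F3} {v w y v' w' y' f h p k f' h' p' k' : V8}
    (b : B3 a v w y) (c : B4 f h p k) (ho : ∀ i j, Bf (![v, w, y] i) (![f, h, p, k] j) = 0)
    (hx : nop x = n3 a v w y + n4 f h p k)
    (b' : B3 a v' w' y') (c' : B4 f' h' p' k')
    (ho' : ∀ i j, Bf (![v', w', y'] i) (![f', h', p', k'] j) = 0)
    (hz : nop z = n3 a v' w' y' + n4 f' h' p' k') : ∃ g, g * x * g⁻¹ = z := by
  obtain ⟨g, hg⟩ := exists_isometry_of_gram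
    (linearIndependent_of_gram _ (gram_orth (gram3 b) (gram4 c) ho))
    (linearIndependent_of_gram _ (gram_orth (gram3 b') (gram4 c') ho'))
    (gram_sum_eq (gram3_eq b b') (gram4_eq c c') ho ho')
  refine ⟨g, conj_of_equivariant g fun u => ?_⟩
  have e0 : lin g v = v' := hg (.inl 0)
  have e1 : lin g w = w' := hg (.inl 1)
  have e2 : lin g y = y' := hg (.inl 2)
  have d0 : lin g f = f' := hg (.inr 0)
  have d1 : lin g h = h' := hg (.inr 1)
  have d2 : lin g p = p' := hg (.inr 2)
  have d3 : lin g k = k' := hg (.inr 3)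
  rw [hx, hz, LinearMap.add_apply, LinearMap.add_apply, map_add, lin_n3, lin_n4, e0, e1, e2, d0,
    d1, d2, d3]

lemma conj_n33 {x z : G8} {a c : F3} {v w y v' w' y' f h p f' h' p' : V8}
    (b : B3 a v w y) (d : B3 c f h p) (ho : ∀ i j, Bf (![v, w, y] i) (![f, h, p] j) = 0)
    (hx : nop x = n3 a v w y + n3 c f h p)
    (b' : B3 a v' w' y') (d' : B3 c f' h' p')
    (ho' : ∀ i j, Bf (![v', w', y'] i) (![f', h', p'] j) = 0)
    (hz : nop z = n3 a v' w' y' + n3 c f' h' p') : ∃ g, g * x * g⁻¹ = z := by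
  obtain ⟨g, hg⟩ := exists_isometry_of_gram
    (linearIndependent_of_gram _ (gram_orth (gram3 b) (gram3 d) ho))
    (linearIndependent_of_gram _ (gram_orth (gram3 b') (gram3 d') ho'))
    (gram_sum_eq (gram3_eq b b') (gram3_eq d d') ho ho')
  refine ⟨g, conj_of_equivariant g fun u => ?_⟩
  have e0 : lin g v = v' := hg (.inl 0)
  have e1 : lin g w = w' := hg (.inl 1)
  have e2 : lin g y = y' := hg (.inl 2)
  have d0 : lin g f = f' := hg (.inr 0)
  have d1 : lin g h = h' := hg (.inr 1)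
  have d2 : lin g p = p' := hg (.inr 2)
  rw [hx, hz, LinearMap.add_apply, LinearMap.add_apply, map_add, lin_n3, lin_n3, e0, e1, e2, d0,
    d1, d2]

lemma conj_n44 {x z : G8} {f h p k u v w y f' h' p' k' u' v' w' y' : V8}
    (b : B4 f h p k) (c : B4 u v w y) (ho : ∀ i j, Bf (![f, h, p, k] i) (![u, v, w, y] j) = 0)
    (hx : nop x = n4 f h p k + n4 u v w y)
    (b' : B4 f' h' p' k') (c' : B4 u' v' w' y')
    (ho' : ∀ i j, Bf (![f', h', p', k'] i) (![u', v', w', y'] j) = 0)
    (hz : nop z = n4 f' h' p' k' + n4 u' v' w' y') : ∃ g, g * x * g⁻¹ = z := by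
  obtain ⟨g, hg⟩ := exists_isometry_of_gram
    (linearIndependent_of_gram _ (gram_orth (gram4 b) (gram4 c) ho))
    (linearIndependent_of_gram _ (gram_orth (gram4 b') (gram4 c') ho'))
    (gram_sum_eq (gram4_eq b b') (gram4_eq c c') ho ho')
  refine ⟨g, conj_of_equivariant g fun t => ?_⟩
  have e0 : lin g f = f' := hg (.inl 0)
  have e1 : lin g h = h' := hg (.inl 1)
  have e2 : lin g p = p' := hg (.inl 2)
  have e3 : lin g k = k' := hg (.inl 3)
  have d0 : lin g u = u' := hg (.inr 0)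
  have d1 : lin g v = v' := hg (.inr 1)
  have d2 : lin g w = w' := hg (.inr 2)
  have d3 : lin g y = y' := hg (.inr 3)
  rw [hx, hz, LinearMap.add_apply, LinearMap.add_apply, map_add, lin_n4, lin_n4, e0, e1, e2, e3,
    d0, d1, d2, d3]

/-- The eight standard elements. -/
noncomputable def zStd : Fin 8 → G8 := ![zA, zE, zP, zM, zCP, zCM, zDP, zDM]

theorem exists_conj_std {x : G8} (hx : x ^ 3 = 1) (hne : x ≠ 1) :
    ∃ (i : Fin 8) (g : G8), g * x * g⁻¹ = zStd i := by
  rcases classify hx hne with h | h | h | h | h | h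
  · obtain ⟨f, a, p, k, b, hn⟩ := h
    exact ⟨0, conj_n4 (z := zA) b hn b_four (nop_eltOf _ _)⟩
  · obtain ⟨f, a, p, k, f', a', p', k', b, c, ho, hn⟩ := h
    exact ⟨1, conj_n44 (z := zE) b c ho hn b_four b_four' orth_four_four (nop_eltOf _ _)⟩
  · obtain ⟨a, ha, v, w, z, b, hn⟩ := h
    rcases unit_cases ha with rfl | rfl
    · exact ⟨2, conj_n3 (z := zP) b hn b_pos (nop_eltOf _ _)⟩
    · exact ⟨3, conj_n3 (z := zM) b hn b_neg (nop_eltOf _ _)⟩
  · obtain ⟨a, ha, v, w, z, f, q, p, k, b, c, ho, hn⟩ := h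
    rcases unit_cases ha with rfl | rfl
    · exact ⟨4, conj_n34 (z := zCP) b c ho hn b_pos b_four orth_four (nop_eltOf _ _)⟩
    · exact ⟨5, conj_n34 (z := zCM) b c ho hn b_neg b_four orth_four_neg (nop_eltOf _ _)⟩
  · obtain ⟨v, w, z, v', w', z', b, c, ho, hn⟩ := h
    exact ⟨6, conj_n33 (z := zDP) b c ho hn b_pos b_pos' orth_pos (nop_eltOf _ _)⟩
  · obtain ⟨v, w, z, v', w', z', b, c, ho, hn⟩ := h
    exact ⟨7, conj_n33 (z := zDM) b c ho hn b_pos b_neg' orth_neg (nop_eltOf _ _)⟩

end CfsgLib.O83
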